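import Mathlib

/-!
Elementary facts on operators of finite order and on families of commuting operators.
-/

set_option autoImplicit false

namespace CfsgLib.AltLinear

open Module Polynomial

variable {k V : Type*} [Field k] [AddCommGroup V] [Module k V]

theorem exists_eigen_mem [IsAlgClosed k] [FiniteDimensional k V] (T : End k V) (U : Submodule k V)
    (hU : ∀ x ∈ U, T x ∈ U) (h0 : U ≠ ⊥) : ∃ μ : k, ∃ v ∈ U, v ≠ 0 ∧ T v = μ • v := by
  haveI : Nontrivial U := Submodule.nontrivial_iff_ne_bot.2 h0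
  obtain ⟨μ, hμ⟩ := Module.End.exists_eigenvalue (LinearMap.restrict T hU : End k U)
  obtain ⟨v, hv⟩ := hμ.exists_hasEigenvector
  exact ⟨μ, v, v.2, fun h => hv.2 (Subtype.ext h), congrArg Subtype.val hv.apply_eq_smul⟩

theorem isSemisimple_of_pow [FiniteDimensional k V] (T : End k V) {q : ℕ} (hq : (q : k) ≠ 0) (h : T ^ q = 1) :
    T.IsSemisimple :=
  Module.End.isSemisimple_of_squarefree_aeval_eq_zero
    (separable_X_pow_sub_C (1 : k) hq one_ne_zero).squarefree (by simp [h])

theorem pow_apply_eigen (T : End k V) {μ : k} {v : V} (h : T v = μ • v) (i : ℕ) : (T ^ i) v = μ ^ i • v := by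
  induction i with
  | zero => simp
  | succ i ih => rw [pow_succ, Module.End.mul_apply, h, map_smul, ih, smul_smul, ← pow_succ']

theorem eigen_pow_eq_one (T : End k V) {q : ℕ} (h : T ^ q = 1) {μ : k} {v : V} (hv : v ≠ 0)
    (he : T v = μ • v) : μ ^ q = 1 := by
  have := pow_apply_eigen T he q
  rw [h, Module.End.one_apply] at this
  by_contra hne
  exact hv ((smul_eq_zero.1 (show (μ ^ q - 1) • v = 0 by rw [sub_smul, one_smul, ← this, sub_self])).resolve_left
    (sub_ne_zero.2 hne))

/-- An operator of order prime to the characteristic has a non-trivial eigenvalue. -/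
theorem exists_eigen_ne_one [IsAlgClosed k] [FiniteDimensional k V] (T : End k V) {q : ℕ}
    (hq : (q : k) ≠ 0) (h : T ^ q = 1) (hT : T ≠ 1) :
    ∃ μ : k, μ ≠ 1 ∧ μ ^ q = 1 ∧ ∃ v : V, v ≠ 0 ∧ T v = μ • v := by
  by_contra hcon
  push Not at hcon
  have hss := (isSemisimple_of_pow T hq h).isFinitelySemisimple
  have htop := Module.End.iSup_maxGenEigenspace_eq_top T
  rw [hss.iSup_maxGenEigenspace_eq_top_iff] at htop
  refine hT (LinearMap.ext fun x => ?_)
  have hle : (⨆ μ, T.eigenspace μ) ≤ T.eigenspace 1 := iSup_le fun μ v hv => by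
    rw [Module.End.mem_eigenspace_iff] at hv ⊢
    by_cases hv0 : v = 0
    · simp [hv0]
    by_cases hμ : μ = 1
    · exact hμ ▸ hv
    exact absurd hv (hcon μ hμ (eigen_pow_eq_one T h hv0 hv) v hv0)
  simpa [Module.End.mem_eigenspace_iff] using hle (htop ▸ Submodule.mem_top (x := x))

/-- Fixed vectors in the image of `T - 1` vanish. -/
theorem sub_one_eq_zero_of_sq (T : End k V) {q : ℕ} (hq : (q : k) ≠ 0) (h : T ^ q = 1) {x : V}
    (hx : T (T x - x) = T x - x) : T x = x := by
  set y := T x - x with hy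
  have hi : ∀ i : ℕ, (T ^ i) x = x + (i : k) • y := by
    intro i
    induction i with
    | zero => simp
    | succ i ih =>
      rw [pow_succ', Module.End.mul_apply, ih, map_add, map_smul, hx, Nat.cast_succ, add_smul, one_smul, hy]
      abel
  have := hi q
  rw [h, Module.End.one_apply, eq_comm, add_eq_left, smul_eq_zero] at this
  exact sub_eq_zero.1 (this.resolve_left hq)

theorem eigenspace_le_range (T : End k V) {μ : k} (hμ : μ ≠ 1) :
    T.eigenspace μ ≤ LinearMap.range (T - 1) := fun v hv => by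
  rw [Module.End.mem_eigenspace_iff] at hv
  refine ⟨(μ - 1)⁻¹ • v, ?_⟩
  rw [LinearMap.sub_apply, Module.End.one_apply, map_smul, hv, smul_smul, ← sub_smul,
    show (μ - 1)⁻¹ * μ - (μ - 1)⁻¹ = (μ - 1)⁻¹ * (μ - 1) by ring, inv_mul_cancel₀ (sub_ne_zero.2 hμ), one_smul]

/-- Distinct weights of commuting operators are at most as many as the dimension. -/
theorem card_weights_le [FiniteDimensional k V] {ι : Type*} (T : ι → End k V)
    (hc : ∀ i j, Commute (T i) (T j)) (S : Finset (ι → k))
    (hS : ∀ χ ∈ S, ∃ v : V, v ≠ 0 ∧ ∀ i, T i v = χ i • v) : S.card ≤ finrank k V := by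
  classical
  choose! v hv0 hv using hS
  have hind := Module.End.independent_iInf_maxGenEigenspace_of_forall_mapsTo T
    fun i j φ => Module.End.mapsTo_maxGenEigenspace_of_comm (hc j i) φ
  have hli : LinearIndependent k fun χ : S => v χ.1 := by
    refine iSupIndep.linearIndependent _ (hind.comp Subtype.val_injective) (fun χ => ?_) fun χ => hv0 _ χ.2
    simp only [Function.comp_apply, Submodule.mem_iInf]
    exact fun i => (Module.End.eigenspace_le_maxGenEigenspace (f := T i) (μ := χ.1 i))
      (Module.End.mem_eigenspace_iff.2 (hv _ χ.2 i))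
  simpa using hli.fintype_card_le_finrank

/-- Subspaces separated by operators. -/
theorem sum_finrank_le [FiniteDimensional k V] {ι : Type*} [Fintype ι] (U : ι → Submodule k V)
    (T : ι → End k V) (h0 : ∀ i j, i ≠ j → ∀ x ∈ U i, T j x = 0)
    (h1 : ∀ i, ∀ x ∈ U i, T i x = 0 → x = 0) : ∑ i, finrank k (U i) ≤ finrank k V := by
  classical
  let Φ : (∀ i, U i) →ₗ[k] V := ∑ i, (U i).subtype ∘ₗ LinearMap.proj i
  have hΦ : Function.Injective Φ := by
    rw [← LinearMap.ker_eq_bot, LinearMap.ker_eq_bot']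
    intro x hx
    funext j
    refine Subtype.ext (h1 j _ (x j).2 ?_)
    have := congrArg (T j) hx
    simp only [Φ, LinearMap.coe_sum, Finset.sum_apply, LinearMap.comp_apply, LinearMap.proj_apply,
      Submodule.subtype_apply, map_sum, map_zero] at this
    rwa [Finset.sum_eq_single j (fun i _ hi => h0 i j hi _ (x i).2) (by simp)] at this
  simpa [Module.finrank_pi_fintype] using LinearMap.finrank_le_finrank_of_injective hΦ

section Rep

variable {G : Type*} [Group G] (σ : Representation k G V)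

theorem rep_mul_apply (g h : G) (x : V) : σ (g * h) x = σ g (σ h x) := by
  rw [map_mul]; rfl

theorem rep_inv_apply (g : G) (x : V) : σ g⁻¹ (σ g x) = x := by
  rw [← rep_mul_apply, inv_mul_cancel, map_one]; rfl

theorem rep_apply_inv (g : G) (x : V) : σ g (σ g⁻¹ x) = x := by
  rw [← rep_mul_apply, mul_inv_cancel, map_one]; rfl

theorem rep_injective (g : G) : Function.Injective (σ g) :=
  Function.LeftInverse.injective (rep_inv_apply σ g)

theorem rep_comm_apply {g h : G} (hc : g * h = h * g) (x : V) : σ g (σ h x) = σ h (σ g x) := by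
  rw [← rep_mul_apply, hc, rep_mul_apply]

theorem mem_eigen_conj (g a : G) (μ : k) (x : V) :
    σ g x ∈ Module.End.eigenspace (σ (g * a * g⁻¹)) μ ↔ x ∈ Module.End.eigenspace (σ a) μ := by
  rw [Module.End.mem_eigenspace_iff, Module.End.mem_eigenspace_iff, rep_mul_apply, rep_mul_apply,
    rep_inv_apply, ← map_smul]
  exact (rep_injective σ g).eq_iff

theorem map_eigen_conj (g a : G) (μ : k) :
    (Module.End.eigenspace (σ a) μ).map (σ g) = Module.End.eigenspace (σ (g * a * g⁻¹)) μ := by
  refine le_antisymm ?_ fun y hy => ⟨σ g⁻¹ y, ?_, rep_apply_inv σ g y⟩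
  · rintro _ ⟨x, hx, rfl⟩; exact (mem_eigen_conj σ g a μ x).2 hx
  · exact (mem_eigen_conj σ g a μ _).1 (by rwa [rep_apply_inv])

theorem finrank_map_rep (g : G) (U : Submodule k V) : finrank k (U.map (σ g)) = finrank k U :=
  (Submodule.equivMapOfInjective _ (rep_injective σ g) U).symm.finrank_eq

theorem finrank_eigen_conj (g a : G) (μ : k) :
    finrank k (Module.End.eigenspace (σ (g * a * g⁻¹)) μ) = finrank k (Module.End.eigenspace (σ a) μ) := by
  rw [← map_eigen_conj, finrank_map_rep]

theorem eigen_invariant {g a : G} (hc : g * a = a * g) (μ : k) :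
    ∀ x ∈ Module.End.eigenspace (σ a) μ, σ g x ∈ Module.End.eigenspace (σ a) μ := fun x hx => by
  rw [Module.End.mem_eigenspace_iff] at hx ⊢
  rw [← rep_comm_apply σ hc, hx, map_smul]

theorem map_range_conj (g a : G) :
    (LinearMap.range (σ a - 1)).map (σ g) = LinearMap.range (σ (g * a * g⁻¹) - 1) := by
  refine le_antisymm ?_ ?_
  · rintro _ ⟨_, ⟨x, rfl⟩, rfl⟩
    exact ⟨σ g x, by simp [rep_mul_apply, rep_inv_apply]⟩
  · rintro _ ⟨x, rfl⟩
    refine ⟨σ a (σ g⁻¹ x) - σ g⁻¹ x, ⟨σ g⁻¹ x, rfl⟩, ?_⟩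
    simp [rep_mul_apply, rep_apply_inv]

/-- The action on an invariant subspace. -/
def restrictRep (U : Submodule k V) (hU : ∀ g, ∀ x ∈ U, σ g x ∈ U) : Representation k G U where
  toFun g := (σ g).restrict (hU g)
  map_one' := LinearMap.ext fun x => Subtype.ext (by simp [LinearMap.restrict_apply])
  map_mul' g h := LinearMap.ext fun x => Subtype.ext (by simp [LinearMap.restrict_apply])

@[simp] theorem restrictRep_apply (U : Submodule k V) (hU : ∀ g, ∀ x ∈ U, σ g x ∈ U) (g : G) (x : U) :
    (restrictRep σ U hU g x : V) = σ g x := rfl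

theorem restrictRep_eq_one_iff (U : Submodule k V) (hU : ∀ g, ∀ x ∈ U, σ g x ∈ U) (g : G) :
    restrictRep σ U hU g = 1 ↔ ∀ x ∈ U, σ g x = x := by
  refine ⟨fun h x hx => by simpa using congrArg Subtype.val (DFunLike.congr_fun h (⟨x, hx⟩ : U)), fun h => ?_⟩
  exact LinearMap.ext fun x => Subtype.ext (h x.1 x.2)

end Rep

end CfsgLib.AltLinear
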