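import Cfsg.Agent.AltLinear.Three

/-!
Five-cycles in modules for alternating groups.
-/

set_option autoImplicit false

namespace CfsgLib.AltLinear

open Module Equiv

universe u v

variable {k : Type u} [Field k] {V : Type v} [AddCommGroup V] [Module k V] [FiniteDimensional k V] {m : ℕ}

/-- Doubling modulo five. -/
def dbl : Perm (Fin 5) := ⟨fun x => 2 * x, fun x => 3 * x, by decide, by decide⟩

theorem em_c5_sq {r : ℕ} (e : Fin 5 ↪ Fin r) : em (dbl.toEmbedding.trans e) c5 = em e c5 ^ 2 := by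
  rw [em_perm e dbl c5 (c5 ^ 2) (by decide), map_pow]

theorem five_fifth {T : End k V} (h : T ^ 5 = 1) {a : k} {x : V} (hx : (T ^ 2) x = a • x) :
    T x = a ^ 3 • x := by
  have := pow_apply_eigen (T ^ 2) hx 3
  rwa [← pow_mul, show 2 * 3 = 5 + 1 by norm_num, pow_succ, h, one_mul] at this

/-- A faithful five-cycle has all four non-trivial eigenvalues. -/
theorem exists_fourEigen [IsAlgClosed k] (σ : Representation k (Alt m) V) (h5 : (5 : k) ≠ 0) (hm : 7 ≤ m)
    (e : Fin 5 ↪ Fin m) (hne : σ (em e c5) ≠ 1) : ∃ ζ : k, IsPrimitiveRoot ζ 5 ∧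
      ∀ i : Fin 5, i ≠ 0 → ∃ v : V, v ≠ 0 ∧ σ (em e c5) v = ζ ^ i.val • v := by
  obtain ⟨ζ, h1, hc, v, hv, hve⟩ :=
    exists_eigen_ne_one (σ (em e c5)) (by simpa using h5) (rep_pow_five σ e) hne
  have hprim : IsPrimitiveRoot ζ 5 := IsPrimitiveRoot.iff_orderOf.2 (haveI := Fact.mk Nat.prime_five; orderOf_eq_prime hc h1)
  obtain ⟨g, hg⟩ := exists_em_conj e (dbl.toEmbedding.trans e) (by omega)
  have hg' : g * em e c5 * g⁻¹ = em e c5 ^ 2 := by rw [hg, em_c5_sq]
  have step : ∀ (a : k) (x : V), σ (em e c5) x = a • x → σ (em e c5) (σ g x) = a ^ 3 • σ g x := fun a x hx => by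
    refine five_fifth (rep_pow_five σ e) ?_
    rw [← Module.End.mem_eigenspace_iff, ← map_pow, ← hg', mem_eigen_conj, Module.End.mem_eigenspace_iff]
    exact hx
  refine ⟨ζ, hprim, ?_⟩
  have hinj := rep_injective σ g
  have n1 : σ g v ≠ 0 := fun h => hv (hinj (by simpa using h))
  have n2 : σ g (σ g v) ≠ 0 := fun h => n1 (hinj (by simpa using h))
  have n3 : σ g (σ g (σ g v)) ≠ 0 := fun h => n2 (hinj (by simpa using h))
  have e1 := step _ _ hve
  have e2 := step _ _ e1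
  have e3 := step _ _ e2
  have hmod : ∀ a b : ℕ, a % 5 = b % 5 → ζ ^ a = ζ ^ b := fun a b h => by
    rw [pow_eq_pow_mod a hc, pow_eq_pow_mod b hc, h]
  intro i hi
  fin_cases i
  · exact absurd rfl hi
  · exact ⟨v, hv, by simpa using hve⟩
  · exact ⟨_, n3, e3.trans (by rw [← pow_mul, ← pow_mul, hmod (3 * 3 * 3) 2 (by norm_num)])⟩
  · exact ⟨_, n1, e1⟩
  · exact ⟨_, n2, e2.trans (by rw [← pow_mul, hmod (3 * 3) 4 (by norm_num)])⟩

theorem four_le_of_eigen (T : End k V) {ζ : k} (hζ : IsPrimitiveRoot ζ 5) (U : Submodule k V)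
    (hU : ∀ x ∈ U, T x ∈ U) (h : ∀ i : Fin 5, i ≠ 0 → ∃ v ∈ U, v ≠ 0 ∧ T v = ζ ^ i.val • v) :
    4 ≤ finrank k U := by
  classical
  let T' : End k U := T.restrict hU
  have hinj : Function.Injective fun i : Fin 5 => fun _ : Unit => ζ ^ i.val := fun i j hij =>
    Fin.ext (hζ.pow_inj i.isLt j.isLt (congrFun hij ()))
  have := card_weights_le (fun _ : Unit => T') (fun _ _ => Commute.refl T')
    ((Finset.univ.erase (0 : Fin 5)).image fun i => fun _ : Unit => ζ ^ i.val) (fun χ hχ => by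
      obtain ⟨i, hi, rfl⟩ := Finset.mem_image.1 hχ
      obtain ⟨v, hvU, hv, hTv⟩ := h i (Finset.ne_of_mem_erase hi)
      exact ⟨⟨v, hvU⟩, fun h0 => hv (congrArg Subtype.val h0), fun _ => Subtype.ext hTv⟩)
  rw [Finset.card_image_of_injective _ hinj] at this
  simpa using this

theorem four_le_range [IsAlgClosed k] (σ : Representation k (Alt m) V) (h5 : (5 : k) ≠ 0) (hm : 7 ≤ m)
    (e : Fin 5 ↪ Fin m) (hne : σ (em e c5) ≠ 1) : 4 ≤ finrank k (LinearMap.range (σ (em e c5) - 1)) := by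
  obtain ⟨ζ, hζ, h⟩ := exists_fourEigen σ h5 hm e hne
  refine four_le_of_eigen (σ (em e c5)) hζ _ (fun x hx => ?_) fun i hi => ?_
  · obtain ⟨y, rfl⟩ := hx
    exact ⟨σ (em e c5) y, by simp⟩
  · obtain ⟨v, hv, hve⟩ := h i hi
    refine ⟨v, eigenspace_le_range _ (fun h1 => hi (Fin.ext ?_)) (Module.End.mem_eigenspace_iff.2 hve), hv, hve⟩
    exact hζ.pow_inj i.isLt (by norm_num) (by simpa using h1)

/-- One step in the orbit of a pair of exponents. -/
def orbitStep (F : Finset (Fin 5 × Fin 5)) : Finset (Fin 5 × Fin 5) :=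
  F ∪ F.image (fun z => (3 * z.2, z.1)) ∪ F.image (fun z => (4 * z.1, z.2))

/-- Two commuting five-cycles: the second fixes the non-trivial eigenvectors of the first
in a module of dimension less than ten. -/
theorem five_fix [IsAlgClosed k] (σ : Representation k (Alt m) V) (h5 : (5 : k) ≠ 0) (hm : 10 ≤ m)
    (hn : finrank k V < 10) (e f : Fin 5 ↪ Fin m) (hd : ∀ i j, e i ≠ f j) {ζ : k} (hζ : IsPrimitiveRoot ζ 5)
    {i₀ : Fin 5} (hi₀ : i₀ ≠ 0) {x : V} (hx : σ (em e c5) x = ζ ^ i₀.val • x) :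
    σ (em f c5) x = x := by
  classical
  by_contra hne
  set U := Module.End.eigenspace (σ (em e c5)) (ζ ^ i₀.val)
  have hcomm : em f c5 * em e c5 = em e c5 * em f c5 := (em_comm e f c5 c5 hd).symm
  let T : End k U := (σ (em f c5)).restrict (eigen_invariant σ hcomm _)
  have hT5 : T ^ 5 = 1 := by
    refine LinearMap.ext fun y => Subtype.ext ?_
    have := DFunLike.congr_fun (rep_pow_five σ f) y.1
    simpa [pow_succ, T, LinearMap.restrict_apply] using this
  have hT1 : T ≠ 1 := fun h => hne (by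
    simpa [T] using congrArg Subtype.val (DFunLike.congr_fun h (⟨x, Module.End.mem_eigenspace_iff.2 hx⟩ : U)))
  obtain ⟨η, hη, hη5, w, hw, hwe⟩ := exists_eigen_ne_one T (by simpa using h5) hT5 hT1
  obtain ⟨j₀, hj₀, rfl⟩ := hζ.eq_pow_of_pow_eq_one hη5
  have hj0 : (⟨j₀, hj₀⟩ : Fin 5) ≠ 0 := fun h => hη (by rw [show j₀ = 0 from congrArg Fin.val h, pow_zero])
  let E : Fin 10 ↪ Fin m := mkEmb (Fin.append e f) (Fin.append_injective_iff.2 ⟨e.injective, f.injective, hd⟩)
  let d₁ : Fin 5 ↪ Fin 10 := mkEmb ![0, 1, 2, 3, 4] (by decide)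
  let d₂ : Fin 5 ↪ Fin 10 := mkEmb ![5, 6, 7, 8, 9] (by decide)
  have he : d₁.trans E = e := Function.Embedding.ext fun i => by fin_cases i <;> rfl
  have hf : d₂.trans E = f := Function.Embedding.ext fun i => by fin_cases i <;> rfl
  let s : Alt 10 := ⟨(⟨![5, 6, 7, 8, 9, 0, 2, 4, 1, 3], ![5, 8, 6, 9, 7, 0, 1, 2, 3, 4], by decide, by decide⟩ :
    Perm (Fin 10)), Perm.mem_alternatingGroup.2 (by decide)⟩
  let t : Alt 10 := ⟨swap 1 4 * swap 2 3, Perm.mem_alternatingGroup.2 (by decide)⟩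
  have hs1 : em E s * em e c5 * (em E s)⁻¹ = em f c5 := by
    rw [← he, ← hf, ← em_trans, ← em_trans, ← map_inv, ← map_mul, ← map_mul, em_conj s d₁ d₂ c5 (by decide)]
  have hs2 : em E s * em f c5 * (em E s)⁻¹ = em e c5 ^ 2 := by
    rw [← he, ← hf, ← em_trans, ← em_trans, ← map_inv, ← map_mul, ← map_mul, ← map_pow,
      em_conj s d₂ (dbl.toEmbedding.trans d₁) c5 (by decide), em_c5_sq]
  have ht1 : em E t * em e c5 * (em E t)⁻¹ = (em e c5)⁻¹ := by
    rw [← he, ← em_trans, ← map_inv, ← map_mul, ← map_mul,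
      em_conj t d₁ ((swap (1 : Fin 5) 4 * swap 2 3).toEmbedding.trans d₁) c5 (by decide),
      em_perm d₁ (swap 1 4 * swap 2 3) c5 c5⁻¹ (by decide), map_inv, map_inv]
  have ht2 : em E t * em f c5 * (em E t)⁻¹ = em f c5 := by
    rw [← hf, ← em_trans, ← map_inv, ← map_mul, ← map_mul, em_conj t d₂ d₂ c5 (by decide)]
  have hc : ζ ^ 5 = 1 := hζ.pow_eq_one
  have hmod : ∀ a b : ℕ, a % 5 = b % 5 → ζ ^ a = ζ ^ b := fun a b h => by
    rw [pow_eq_pow_mod a hc, pow_eq_pow_mod b hc, h]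
  let P : Fin 5 × Fin 5 → Prop := fun z => ∃ v : V, v ≠ 0 ∧ σ (em e c5) v = ζ ^ z.1.val • v ∧
    σ (em f c5) v = ζ ^ z.2.val • v
  have hP0 : P (i₀, ⟨j₀, hj₀⟩) := ⟨w.1, fun h => hw (Subtype.ext h),
    Module.End.mem_eigenspace_iff.1 w.2, congrArg Subtype.val hwe⟩
  have hPs : ∀ z, P z → P (3 * z.2, z.1) := by
    rintro z ⟨v, hv, h1, h2⟩
    refine ⟨σ (em E s) v, fun h => hv (rep_injective σ _ (by simpa using h)), ?_, ?_⟩
    · rw [hmod (3 * z.2 : Fin 5).val (z.2.val * 3) (by rw [Fin.val_mul]; simp [mul_comm]), pow_mul]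
      refine five_fifth (rep_pow_five σ e) ?_
      rw [← Module.End.mem_eigenspace_iff, ← map_pow, ← hs2, mem_eigen_conj, Module.End.mem_eigenspace_iff]
      exact h2
    · rw [← Module.End.mem_eigenspace_iff, ← hs1, mem_eigen_conj, Module.End.mem_eigenspace_iff]
      exact h1
  have hPt : ∀ z, P z → P (4 * z.1, z.2) := by
    rintro z ⟨v, hv, h1, h2⟩
    refine ⟨σ (em E t) v, fun h => hv (rep_injective σ _ (by simpa using h)), ?_, ?_⟩
    · rw [hmod (4 * z.1 : Fin 5).val (z.1.val * 4) (by rw [Fin.val_mul]; simp [mul_comm]), pow_mul]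
      have hinv : (ζ ^ z.1.val)⁻¹ = (ζ ^ z.1.val) ^ 4 := by
        refine inv_eq_of_mul_eq_one_right ?_
        rw [← pow_succ', ← pow_mul, mul_comm, pow_mul, hc, one_pow]
      rw [← hinv, ← Module.End.mem_eigenspace_iff]
      refine eigenspace_inv σ _ _ ?_
      rw [← ht1, mem_eigen_conj, Module.End.mem_eigenspace_iff]
      exact h1
    · rw [← Module.End.mem_eigenspace_iff, ← ht2, mem_eigen_conj, Module.End.mem_eigenspace_iff]
      exact h2
  have hiter : ∀ n, ∀ z ∈ orbitStep^[n] {(i₀, ⟨j₀, hj₀⟩)}, P z := by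
    intro n
    induction n with
    | zero => intro z hz; simp at hz; exact hz ▸ hP0
    | succ n ih =>
      intro z hz
      rw [Function.iterate_succ', Function.comp_apply, orbitStep, Finset.mem_union, Finset.mem_union,
        Finset.mem_image, Finset.mem_image] at hz
      rcases hz with (hz | ⟨y, hy, rfl⟩) | ⟨y, hy, rfl⟩
      exacts [ih z hz, hPs y (ih y hy), hPt y (ih y hy)]
  have hcard : 10 ≤ (orbitStep^[8] {(i₀, (⟨j₀, hj₀⟩ : Fin 5))}).card :=
    (by decide +kernel : ∀ a b : Fin 5, a ≠ 0 → b ≠ 0 → 10 ≤ (orbitStep^[8] {(a, b)}).card) i₀ _ hi₀ hj0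
  have hle := card_weights_le (fun b : Bool => if b then σ (em e c5) else σ (em f c5))
    (fun a b => by
      have h := (show Commute (σ (em f c5)) (σ (em e c5)) from by
        rw [Commute, SemiconjBy, ← map_mul, ← map_mul, hcomm])
      cases a <;> cases b <;> simp <;> first | exact h | exact h.symm)
    ((orbitStep^[8] {(i₀, (⟨j₀, hj₀⟩ : Fin 5))}).image fun z => fun b : Bool =>
      if b then ζ ^ z.1.val else ζ ^ z.2.val) (fun χ hχ => by
      obtain ⟨z, hz, rfl⟩ := Finset.mem_image.1 hχ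
      obtain ⟨v, hv, h1, h2⟩ := hiter 8 z hz
      exact ⟨v, hv, fun b => by cases b <;> simp [h1, h2]⟩)
  rw [Finset.card_image_of_injective _ fun z z' h => Prod.ext
    (Fin.ext (hζ.pow_inj z.1.isLt z'.1.isLt (by simpa using congrFun h true)))
    (Fin.ext (hζ.pow_inj z.2.isLt z'.2.isLt (by simpa using congrFun h false)))] at hle
  omega

end CfsgLib.AltLinear
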