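import Cfsg.Agent.AltLinear.Five

/-!
Klein four-groups in modules of alternating groups, characteristic not two.
-/

set_option autoImplicit false
set_option linter.unusedSectionVars false

namespace CfsgLib.AltLinear

open Module Equiv

universe u v

variable {k : Type u} [Field k] {V : Type v} [AddCommGroup V] [Module k V] {m r : ℕ}

/-- The double transposition `(0 1)(2 3)`. -/
def t4 : Alt 4 := ⟨swap 0 1 * swap 2 3, Perm.mem_alternatingGroup.2 (by decide)⟩

/-- The double transposition `(0 2)(1 3)`. -/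
def u4 : Alt 4 := ⟨swap 0 2 * swap 1 3, Perm.mem_alternatingGroup.2 (by decide)⟩

/-- The three-cycle `(1 2 3)` on four letters. -/
def rho : Perm (Fin 4) := swap 1 2 * swap 2 3

/-- The three-cycle `(1 2 3)` on four letters, as an even permutation. -/
def rhoA : Alt 4 := ⟨rho, Perm.mem_alternatingGroup.2 (by decide)⟩

/-- Relabelling a quadruple by a three-cycle. -/
def rot (q : Fin 4 ↪ Fin r) : Fin 4 ↪ Fin r := rho.toEmbedding.trans q

theorem rot_range (q : Fin 4 ↪ Fin r) (i : Fin 4) : rot q i = q (rho i) := rfl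

theorem em_rot_t (q : Fin 4 ↪ Fin r) : em (rot q) t4 = em q u4 := em_perm q rho t4 u4 (by decide)

theorem em_rot_u (q : Fin 4 ↪ Fin r) : em (rot q) u4 = em q t4 * em q u4 := by
  rw [rot, em_perm q rho u4 (t4 * u4) (by decide), map_mul]

/-- The common eigenspace of the Klein group for the character trivial on `(0 1)(2 3)`. -/
noncomputable def J (σ : Representation k (Alt r) V) (q : Fin 4 ↪ Fin r) : Submodule k V :=
  Module.End.eigenspace (σ (em q t4)) 1 ⊓ Module.End.eigenspace (σ (em q u4)) (-1)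

theorem mem_J {σ : Representation k (Alt r) V} {q : Fin 4 ↪ Fin r} {x : V} :
    x ∈ J σ q ↔ σ (em q t4) x = x ∧ σ (em q u4) x = -x := by
  simp [J, Module.End.mem_eigenspace_iff]

theorem mem_J_rot {σ : Representation k (Alt r) V} {q : Fin 4 ↪ Fin r} {x : V} :
    x ∈ J σ (rot q) ↔ σ (em q t4) x = -x ∧ σ (em q u4) x = x := by
  rw [mem_J, em_rot_t, em_rot_u, rep_mul_apply]
  exact ⟨fun ⟨h1, h2⟩ => ⟨by rwa [h1] at h2, h1⟩, fun ⟨h1, h2⟩ => ⟨h2, by rwa [h2]⟩⟩

theorem mem_J_rot_rot {σ : Representation k (Alt r) V} {q : Fin 4 ↪ Fin r} {x : V} :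
    x ∈ J σ (rot (rot q)) ↔ σ (em q t4) x = -x ∧ σ (em q u4) x = -x := by
  rw [mem_J_rot, em_rot_t, em_rot_u, rep_mul_apply]
  constructor
  · rintro ⟨h1, h2⟩
    refine ⟨?_, h1⟩
    rw [h1, map_neg] at h2
    rw [← neg_eq_iff_eq_neg]; exact h2
  · rintro ⟨h1, h2⟩
    exact ⟨h2, by rw [h2, map_neg, h1, neg_neg]⟩

theorem finrank_J_rot (σ : Representation k (Alt r) V) (q : Fin 4 ↪ Fin r) :
    finrank k (J σ (rot q)) = finrank k (J σ q) := by
  have ht : em q rhoA * em q t4 * (em q rhoA)⁻¹ = em (rot q) t4 := by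
    rw [em_rot_t, ← map_inv, ← map_mul, ← map_mul]; congr 1; decide
  have hu : em q rhoA * em q u4 * (em q rhoA)⁻¹ = em (rot q) u4 := by
    rw [em_rot_u, ← map_inv, ← map_mul, ← map_mul, ← map_mul]; congr 1; decide
  rw [J, J, ← ht, ← hu, ← map_eigen_conj, ← map_eigen_conj,
    ← Submodule.map_inf _ (rep_injective σ _), finrank_map_rep]

theorem t4_mul_self : t4 * t4 = 1 := by decide

theorem u4_mul_self : u4 * u4 = 1 := by decide

theorem t4_comm : t4 * u4 = u4 * t4 := by decide

theorem t4_ne_one : t4 ≠ 1 := by decide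

theorem rep_invol (σ : Representation k (Alt r) V) (q : Fin 4 ↪ Fin r) (x : V) :
    σ (em q t4) (σ (em q t4) x) = x ∧ σ (em q u4) (σ (em q u4) x) = x := by
  rw [← rep_mul_apply, ← rep_mul_apply, ← map_mul, ← map_mul, t4_mul_self, u4_mul_self, map_one, map_one]
  exact ⟨rfl, rfl⟩

theorem rep_tu_comm (σ : Representation k (Alt r) V) (q : Fin 4 ↪ Fin r) (x : V) :
    σ (em q t4) (σ (em q u4) x) = σ (em q u4) (σ (em q t4) x) :=
  rep_comm_apply σ (by rw [← map_mul, ← map_mul, t4_comm]) x

/-- A moving Klein involution has non-trivial weights. -/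
theorem pos_J [FiniteDimensional k V] (σ : Representation k (Alt r) V) (h2 : (2 : k) ≠ 0) (q : Fin 4 ↪ Fin r)
    (h : σ (em q t4) ≠ 1) : 0 < finrank k (J σ q) := by
  obtain ⟨x, hx⟩ : ∃ x, σ (em q t4) x ≠ x := by
    by_contra hc
    push Not at hc
    exact h (LinearMap.ext hc)
  obtain ⟨hT, hU⟩ := rep_invol σ q x
  set T := σ (em q t4)
  set U := σ (em q u4)
  set y := x - T x
  have hy0 : y ≠ 0 := sub_ne_zero.2 (Ne.symm hx)
  have hTy : T y = -y := by simp [y, T, map_sub, hT]
  have hUy : U (U y) = y := (rep_invol σ q y).2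
  have hTUy : T (U y) = -(U y) := by rw [rep_tu_comm σ q y, hTy, map_neg]
  have hpos : (0 < finrank k (J σ (rot q))) ∨ (0 < finrank k (J σ (rot (rot q)))) := by
    by_cases hplus : U y + y = 0
    · right
      rw [Module.finrank_pos_iff_exists_ne_zero]
      exact ⟨⟨y, mem_J_rot_rot.2 ⟨hTy, eq_neg_of_add_eq_zero_left hplus⟩⟩, fun h0 => hy0 (congrArg Subtype.val h0)⟩
    · left
      rw [Module.finrank_pos_iff_exists_ne_zero]
      refine ⟨⟨U y + y, mem_J_rot.2 ⟨?_, ?_⟩⟩, fun h0 => hplus (congrArg Subtype.val h0)⟩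
      · show T (U y + y) = _
        rw [map_add, hTUy, hTy]; abel
      · show U (U y + y) = _
        rw [map_add, hUy, add_comm]
  rw [finrank_J_rot, finrank_J_rot, finrank_J_rot] at hpos
  exact hpos.elim id id

/-- The other Klein involution moves as well. -/
theorem ne_one_of_u (σ : Representation k (Alt r) V) (q : Fin 4 ↪ Fin r) (h : σ (em q u4) ≠ 1) :
    σ (em q t4) ≠ 1 := by
  intro ht
  have e : em q rhoA * em q t4 * (em q rhoA)⁻¹ = em q u4 := by
    rw [← map_inv, ← map_mul, ← map_mul]; congr 1; decide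
  exact h (by rw [← e, map_mul, map_mul, ht, mul_one, ← map_mul, mul_inv_cancel, map_one])

/-- Disjoint quadruples fixing each other's weight spaces. -/
theorem sum_J_le [FiniteDimensional k V] (σ : Representation k (Alt r) V) (h2 : (2 : k) ≠ 0) {ι : Type*}
    [Fintype ι] (b : ι → Fin 4 ↪ Fin r)
    (hfix : ∀ i i', i ≠ i' → ∀ q, (q = b i ∨ q = rot (b i) ∨ q = rot (rot (b i))) → ∀ x ∈ J σ q,
      σ (em (b i') t4) x = x ∧ σ (em (b i') u4) x = x) :
    ∑ i, 3 * finrank k (J σ (b i)) ≤ finrank k V := by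
  classical
  let Q : ι × Fin 3 → Fin 4 ↪ Fin r := fun z => ![b z.1, rot (b z.1), rot (rot (b z.1))] z.2
  let sT : Fin 3 → k := ![1, -1, -1]
  let sU : Fin 3 → k := ![-1, 1, -1]
  have hmem : ∀ z x, x ∈ J σ (Q z) → σ (em (b z.1) t4) x = sT z.2 • x ∧ σ (em (b z.1) u4) x = sU z.2 • x := by
    rintro ⟨i, j⟩ x hx
    fin_cases j
    · simpa [sT, sU] using mem_J.1 (show x ∈ J σ (b i) from hx)
    · simpa [sT, sU] using mem_J_rot.1 (show x ∈ J σ (rot (b i)) from hx)
    · simpa [sT, sU] using mem_J_rot_rot.1 (show x ∈ J σ (rot (rot (b i))) from hx)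
  let T : ι × Fin 3 → Module.End k V := fun z =>
    (σ (em (b z.1) t4) + sT z.2 • 1) * (σ (em (b z.1) u4) + sU z.2 • 1)
  have key : ∀ z x a c, σ (em (b z.1) t4) x = a • x → σ (em (b z.1) u4) x = c • x →
      T z x = ((a + sT z.2) * (c + sU z.2)) • x := by
    intro z x a c ha hc
    simp only [T, Module.End.mul_apply, LinearMap.add_apply, LinearMap.smul_apply, Module.End.one_apply,
      map_add, map_smul, hc, ha]
    module
  have := sum_finrank_le (fun z => J σ (Q z)) T (fun z z' hzz x hx => by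
    obtain ⟨i, j⟩ := z
    obtain ⟨i', j'⟩ := z'
    by_cases hii : i = i'
    · subst hii
      obtain ⟨h1, h2'⟩ := hmem _ x hx
      rw [key (i, j') x _ _ h1 h2']
      have hjj : j ≠ j' := fun e => hzz (by rw [e])
      fin_cases j <;> fin_cases j' <;> first | exact absurd rfl hjj | simp [sT, sU]
    · obtain ⟨h1, h2'⟩ := hfix i i' hii (Q (i, j))
        (by fin_cases j <;> simp [Q]) x hx
      rw [key _ x 1 1 (by simpa using h1) (by simpa using h2')]
      fin_cases j' <;> simp [sT, sU])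
    (fun z x hx h0 => by
      obtain ⟨h1, h2'⟩ := hmem _ x hx
      rw [key _ x _ _ h1 h2'] at h0
      refine (smul_eq_zero.1 h0).resolve_left ?_
      rw [← two_mul, ← two_mul]
      obtain ⟨i, j⟩ := z
      fin_cases j <;> simp [sT, sU, h2])
  refine le_trans (le_of_eq ?_) this
  rw [Fintype.sum_prod_type]
  refine Finset.sum_congr rfl fun i _ => ?_
  have e1 := finrank_J_rot σ (b i)
  have e2 := finrank_J_rot σ (rot (b i))
  rw [Fin.sum_univ_three]
  show 3 * finrank k (J σ (b i)) = finrank k (J σ (b i)) + finrank k (J σ (rot (b i))) + finrank k (J σ (rot (rot (b i))))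
  omega

theorem three_le_of_ne [FiniteDimensional k V] (σ : Representation k (Alt r) V) (h2 : (2 : k) ≠ 0)
    (q : Fin 4 ↪ Fin r) (h : σ (em q t4) ≠ 1) : 3 ≤ finrank k V := by
  have := sum_J_le σ h2 (fun _ : Unit => q) (fun i i' hne => absurd (Subsingleton.elim i i') hne)
  have := pos_J σ h2 q h
  simp at *
  omega

/-- The lower bound from disjoint Klein groups. -/
theorem weakKlein (h2 : (2 : k) ≠ 0) : ∀ (c m : ℕ), 4 * c ≤ m → 5 ≤ m →
    ∀ {W : Type v} [AddCommGroup W] [Module k W] [FiniteDimensional k W]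
      (σ : Representation k (Alt m) W), (∃ g, σ g ≠ 1) → 3 * c ≤ finrank k W := by
  intro c
  induction c with
  | zero => intros; omega
  | succ c ih =>
    intro m hcm hm W _ _ _ σ hσ
    let b : Fin (c + 1) → Fin 4 ↪ Fin m := fun i => mkEmb (fun j => ⟨4 * i.val + j.val, by omega⟩)
      (fun a a' h => Fin.ext (by simpa using congrArg Fin.val h))
    have hb : ∀ i i', i ≠ i' → ∀ j j', b i j ≠ b i' j' := fun i i' hii j j' h => by
      have : 4 * i.val + j.val = 4 * i'.val + j'.val := congrArg Fin.val h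
      have := j.isLt
      have := j'.isLt
      exact hii (Fin.ext (by omega))
    obtain ⟨g, hg⟩ := hσ
    have hne : ∀ q, σ (em q t4) ≠ 1 := fun q h =>
      hg (eq_one_of_map_eq_one hm σ (em_ne_one q t4_ne_one) h g)
    by_cases hall : ∀ i i', i ≠ i' → ∀ q, (q = b i ∨ q = rot (b i) ∨ q = rot (rot (b i))) → ∀ x ∈ J σ q,
        σ (em (b i') t4) x = x ∧ σ (em (b i') u4) x = x
    · refine le_trans ?_ (sum_J_le σ h2 b hall)
      calc 3 * (c + 1) = ∑ _i : Fin (c + 1), 3 := by simp; ring
        _ ≤ _ := Finset.sum_le_sum fun i _ => by have := pos_J σ h2 (b i) (hne _); omega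
    · push Not at hall
      obtain ⟨i, i', hii, q, hq, x, hx, hxne⟩ := hall
      have hrange : ∀ j, ∃ j', q j = b i j' := by
        intro j
        rcases hq with rfl | rfl | rfl <;> exact ⟨_, rfl⟩
      obtain ⟨d, hd, hfac⟩ := exists_complement q
      obtain ⟨d', hd'⟩ := hfac (b i') fun a a' e => by
        obtain ⟨j', hj'⟩ := hrange a'
        exact hb i' i (Ne.symm hii) a j' (e.trans hj')
      have hU : ∀ g, ∀ y ∈ J σ q, σ (em d g) y ∈ J σ q := fun g y hy =>
        Submodule.mem_inf.2 ⟨eigen_invariant σ (em_comm d q g t4 hd) 1 y (Submodule.mem_inf.1 hy).1,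
          eigen_invariant σ (em_comm d q g u4 hd) (-1) y (Submodule.mem_inf.1 hy).2⟩
      set σ' := restrictRep (σ.comp (em d)) _ hU
      have ht' : σ' (em d' t4) ≠ 1 := by
        by_cases h1 : σ (em (b i') t4) x = x
        · refine ne_one_of_u σ' d' fun h => hxne h1 ?_
          have := (restrictRep_eq_one_iff _ _ hU _).1 h x hx
          rwa [MonoidHom.comp_apply, em_trans, hd'] at this
        · refine fun h => h1 ?_
          have := (restrictRep_eq_one_iff _ _ hU _).1 h x hx
          rwa [MonoidHom.comp_apply, em_trans, hd'] at this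
      have hJ : c + 1 ≤ finrank k (J σ q) := by
        by_cases hm4 : 5 ≤ m - 4
        · have := ih (m - 4) (by omega) hm4 σ' ⟨_, ht'⟩
          by_cases hc : c = 0
          · have := three_le_of_ne σ' h2 d' ht'
            omega
          omega
        · have := three_le_of_ne σ' h2 d' ht'
          omega
      have := sum_J_le σ h2 (fun _ : Unit => q) (fun i i' hne => absurd (Subsingleton.elim i i') hne)
      simp at this
      omega

end CfsgLib.AltLinear
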