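import Cfsg.Agent.AltLinear.OddBasic

/-!
In characteristic not two the alternating group of degree `r ≥ 9` has no faithful module of dimension
less than `r - 1`, or than `r - 2` when the characteristic divides `r`.
-/

set_option autoImplicit false
set_option linter.unusedSectionVars false

namespace CfsgLib.AltLinear

open Module Equiv

universe u v

variable {k : Type u} [Field k] [IsAlgClosed k] {V : Type v} [AddCommGroup V] [Module k V]
  [FiniteDimensional k V] {r : ℕ}

/-- Disjointness of two pairs. -/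
def Dis {l l' : ℕ} (a : Fin l ↪ Fin r) (b : Fin l' ↪ Fin r) : Prop := ∀ i j, a i ≠ b j

theorem Dis.symm {l l' : ℕ} {a : Fin l ↪ Fin r} {b : Fin l' ↪ Fin r} (h : Dis a b) : Dis b a :=
  fun i j e => h j i e.symm

/-- The product of the transpositions given by two pairs. -/
def dsw (a b : Fin 2 ↪ Fin r) : Alt r :=
  ⟨swap (a 0) (a 1) * swap (b 0) (b 1), Perm.mem_alternatingGroup.2 (by
    rw [map_mul, Perm.sign_swap (fun h => absurd (a.injective h) (by decide)),
      Perm.sign_swap (fun h => absurd (b.injective h) (by decide))]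
    decide)⟩

theorem swap_comm_of_dis {a b : Fin 2 ↪ Fin r} (h : Dis a b) :
    swap (a 0) (a 1) * swap (b 0) (b 1) = swap (b 0) (b 1) * swap (a 0) (a 1) := by
  rw [mul_swap_eq_swap_mul, swap_apply_of_ne_of_ne (h.symm 0 0) (h.symm 0 1),
    swap_apply_of_ne_of_ne (h.symm 1 0) (h.symm 1 1)]

theorem dsw_conj (g : Alt r) (a b : Fin 2 ↪ Fin r) :
    g * dsw a b * g⁻¹ = dsw (a.trans g.1.toEmbedding) (b.trans g.1.toEmbedding) := by
  apply Subtype.ext
  show g.1 * (swap (a 0) (a 1) * swap (b 0) (b 1)) * g.1⁻¹ =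
    swap (g.1 (a 0)) (g.1 (a 1)) * swap (g.1 (b 0)) (g.1 (b 1))
  rw [show g.1 * (swap (a 0) (a 1) * swap (b 0) (b 1)) * g.1⁻¹ =
    (g.1 * swap (a 0) (a 1) * g.1⁻¹) * (g.1 * swap (b 0) (b 1) * g.1⁻¹) by group,
    mul_swap_eq_swap_mul, mul_swap_eq_swap_mul]
  group

theorem dsw_symm {a b : Fin 2 ↪ Fin r} (h : Dis a b) : dsw a b = dsw b a := Subtype.ext (swap_comm_of_dis h)

theorem dsw_mul {a b c : Fin 2 ↪ Fin r} (h : Dis a b) : dsw a b * dsw a c = dsw b c := by
  apply Subtype.ext
  show swap (a 0) (a 1) * swap (b 0) (b 1) * (swap (a 0) (a 1) * swap (c 0) (c 1)) = _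
  rw [swap_comm_of_dis h, mul_assoc, ← mul_assoc (swap (a 0) (a 1)), swap_mul_self, one_mul]
  rfl

theorem dsw_sq {a b : Fin 2 ↪ Fin r} (h : Dis a b) : dsw a b * dsw a b = 1 := by
  rw [dsw_mul h]
  exact Subtype.ext (swap_mul_self _ _)

theorem dsw_comm {a b c : Fin 2 ↪ Fin r} (hab : Dis a b) (hac : Dis a c) (hbc : Dis b c) :
    dsw a b * dsw a c = dsw a c * dsw a b := by rw [dsw_mul hab, dsw_mul hac, dsw_symm hbc]

/-- The projection to the `-1`-eigenspace. -/
noncomputable def Pr {G : Type*} [Group G] (σ : Representation k G V) (x : G) : Module.End k V :=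
  (2 : k)⁻¹ • (1 - σ x)

theorem Pr_apply {G : Type*} [Group G] (σ : Representation k G V) (x : G) (v : V) :
    Pr σ x v = (2 : k)⁻¹ • (v - σ x v) := rfl

theorem exists_coord (L : Submodule k V) (T : Module.End k V) (hT : ∀ x, T x ∈ L) {v : V} (hv : v ≠ 0)
    (hL : L = k ∙ v) : ∃ f : V →ₗ[k] k, ∀ x, T x = f x • v := by
  refine ⟨(LinearEquiv.toSpanNonzeroSingleton k V v hv).symm.toLinearMap ∘ₗ
    LinearMap.codRestrict (k ∙ v) T (fun x => hL ▸ hT x), fun x => ?_⟩
  set y : (k ∙ v) := ⟨T x, hL ▸ hT x⟩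
  have := (LinearEquiv.toSpanNonzeroSingleton k V v hv).apply_symm_apply y
  exact (congrArg Subtype.val this).symm

/-- Commuting idempotents with the same image are equal. -/
theorem idem_eq {P Q : Module.End k V} (hP : ∀ x, P (P x) = P x) (hQ : ∀ x, Q (Q x) = Q x)
    (hPQ : ∀ x, P (Q x) = Q (P x)) (h1 : ∀ x, Q x ∈ LinearMap.range P) (h2 : ∀ x, P x ∈ LinearMap.range Q) :
    P = Q := LinearMap.ext fun x => by
  obtain ⟨y, hy⟩ := h1 x
  obtain ⟨z, hz⟩ := h2 x
  rw [← hz, ← hy, ← hQ z, hz, ← hPQ, ← hy, hP]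

variable {σ : Representation k (Alt r) V}

namespace SmallOdd

theorem mem_neg {x : Alt r} {v : V} : v ∈ Module.End.eigenspace (σ x) (-1) ↔ σ x v = -v := by
  rw [Module.End.mem_eigenspace_iff, neg_one_smul]

theorem Pr_of_neg (h : SmallOdd σ) {x : Alt r} {v : V} (hv : σ x v = -v) : Pr σ x v = v := by
  rw [Pr_apply, hv, sub_neg_eq_add, ← two_smul k v, smul_smul, inv_mul_cancel₀ h.char, one_smul]

theorem neg_Pr {x : Alt r} (hx : x * x = 1) (v : V) : σ x (Pr σ x v) = -(Pr σ x v) := by
  rw [Pr_apply, map_smul, map_sub, ← rep_mul_apply, hx, map_one, Module.End.one_apply, ← smul_neg, neg_sub]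

theorem Pr_comm {x y : Alt r} (hc : x * y = y * x) (v : V) : σ y (Pr σ x v) = Pr σ x (σ y v) := by
  rw [Pr_apply, Pr_apply, map_smul, map_sub, rep_comm_apply σ hc.symm]

theorem neg_dsw (h : SmallOdd σ) {a b : Fin 2 ↪ Fin r} (hab : Dis a b) :
    finrank k (Module.End.eigenspace (σ (dsw a b)) (-1)) = 2 := by
  let q : Fin 4 ↪ Fin r := mkEmb (Fin.append a b) (Fin.append_injective_iff.2 ⟨a.injective, b.injective, hab⟩)
  have h0 : q 0 = a 0 := rfl
  have h1 : q 1 = a 1 := rfl
  have h2 : q 2 = b 0 := rfl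
  have h3 : q 3 = b 1 := rfl
  have e : em q t4 = dsw a b := by
    refine em_eq q t4 _ (fun i => ?_) (fun z hz => ?_)
    · fin_cases i
      · show swap (a 0) (a 1) (swap (b 0) (b 1) (q 0)) = q 1
        rw [h0, h1, swap_apply_of_ne_of_ne (hab 0 0) (hab 0 1), swap_apply_left]
      · show swap (a 0) (a 1) (swap (b 0) (b 1) (q 1)) = q 0
        rw [h0, h1, swap_apply_of_ne_of_ne (hab 1 0) (hab 1 1), swap_apply_right]
      · show swap (a 0) (a 1) (swap (b 0) (b 1) (q 2)) = q 3
        rw [h2, h3, swap_apply_left, swap_apply_of_ne_of_ne (hab.symm 1 0) (hab.symm 1 1)]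
      · show swap (a 0) (a 1) (swap (b 0) (b 1) (q 3)) = q 2
        rw [h2, h3, swap_apply_right, swap_apply_of_ne_of_ne (hab.symm 0 0) (hab.symm 0 1)]
    · show swap (a 0) (a 1) (swap (b 0) (b 1) z) = z
      have n0 : z ≠ a 0 := fun e => hz 0 (h0.trans e.symm)
      have n1 : z ≠ a 1 := fun e => hz 1 (h1.trans e.symm)
      have n2 : z ≠ b 0 := fun e => hz 2 (h2.trans e.symm)
      have n3 : z ≠ b 1 := fun e => hz 3 (h3.trans e.symm)
      rw [swap_apply_of_ne_of_ne n2 n3, swap_apply_of_ne_of_ne n0 n1]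
  rw [← e]
  exact h.finrank_neg q

/-- The line attached to a transposition, from two further ones. -/
noncomputable def Line (σ : Representation k (Alt r) V) (a b c : Fin 2 ↪ Fin r) : Submodule k V :=
  Module.End.eigenspace (σ (dsw a b)) (-1) ⊓ Module.End.eigenspace (σ (dsw a c)) (-1)

theorem mem_Line {a b c : Fin 2 ↪ Fin r} {v : V} :
    v ∈ Line σ a b c ↔ σ (dsw a b) v = -v ∧ σ (dsw a c) v = -v := by
  simp only [Line, Submodule.mem_inf, mem_neg]

theorem not_both (h : SmallOdd σ) {x y : Alt r} {v : V} (hx : σ x v = -v) (hy : σ y v = -v)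
    (hxy : σ (x * y) v = -v) : v = 0 := by
  rw [rep_mul_apply, hy, map_neg, hx, neg_neg, eq_neg_iff_add_eq_zero, ← two_smul k v] at hxy
  exact (smul_eq_zero.1 hxy).resolve_left h.char

theorem finrank_Line (h : SmallOdd σ) {a b c : Fin 2 ↪ Fin r} (hab : Dis a b) (hac : Dis a c) (hbc : Dis b c) :
    finrank k (Line σ a b c) = 1 := by
  have key : ∀ a b c : Fin 2 ↪ Fin r, Dis a b → Dis a c → Dis b c →
      finrank k (Line σ a b c) + finrank k (Line σ b a c) = 2 := by
    intro a b c hab hac hbc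
    have e1 : Line σ a b c ⊔ Line σ b a c = Module.End.eigenspace (σ (dsw a b)) (-1) := by
      refine le_antisymm (sup_le inf_le_left ?_) fun v hv => ?_
      · rw [Line, dsw_symm hab]; exact inf_le_left
      · rw [mem_neg] at hv
        have hy2 : σ (dsw a c) (σ (dsw a c) v) = v := by
          rw [← rep_mul_apply, dsw_sq hac, map_one]; rfl
        have hxy : σ (dsw a b) (σ (dsw a c) v) = -(σ (dsw a c) v) := by
          rw [rep_comm_apply σ (dsw_comm hab hac hbc), hv, map_neg]
        have : v = (2 : k)⁻¹ • (v - σ (dsw a c) v) + (2 : k)⁻¹ • (v + σ (dsw a c) v) := by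
          rw [← smul_add, sub_add_add_cancel, ← two_smul k v, smul_smul, inv_mul_cancel₀ h.char, one_smul]
        rw [this]
        refine Submodule.add_mem_sup (Submodule.smul_mem _ _ (mem_Line.2 ⟨?_, ?_⟩))
          (Submodule.smul_mem _ _ (mem_Line.2 ⟨?_, ?_⟩))
        · rw [map_sub, hv, hxy]; abel
        · rw [map_sub, hy2]; abel
        · rw [← dsw_symm hab, map_add, hv, hxy]; abel
        · rw [← dsw_mul hab, rep_mul_apply, map_add, map_add, hy2, hxy, hv]; abel
    have e2 : Line σ a b c ⊓ Line σ b a c = ⊥ := (Submodule.eq_bot_iff _).2 fun v hv => by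
      obtain ⟨h1, h2⟩ := Submodule.mem_inf.1 hv
      rw [mem_Line] at h1 h2
      exact h.not_both h1.1 h1.2 (by rw [dsw_mul hab]; exact h2.2)
    have := Submodule.finrank_sup_add_finrank_inf_eq (Line σ a b c) (Line σ b a c)
    rw [e1, e2, finrank_bot, h.neg_dsw hab] at this
    omega
  have k1 := key a b c hab hac hbc
  have k2 := key a c b hac hab hbc.symm
  have k3 := key b c a hbc hab.symm hac.symm
  have s1 : Line σ a c b = Line σ a b c := inf_comm _ _
  have s2 : Line σ b c a = Line σ b a c := inf_comm _ _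
  have s3 : Line σ c b a = Line σ c a b := inf_comm _ _
  rw [s1] at k2
  rw [s2, s3] at k3
  omega

/-- The projection onto that line. -/
noncomputable def Proj (σ : Representation k (Alt r) V) (a b c : Fin 2 ↪ Fin r) : Module.End k V :=
  Pr σ (dsw a b) * Pr σ (dsw a c)

theorem Proj_mem {a b c : Fin 2 ↪ Fin r} (hab : Dis a b) (hac : Dis a c) (hbc : Dis b c) (v : V) :
    Proj σ a b c v ∈ Line σ a b c := by
  rw [Proj, Module.End.mul_apply, mem_Line]
  refine ⟨neg_Pr (dsw_sq hab) _, ?_⟩
  rw [Pr_comm (dsw_comm hab hac hbc), neg_Pr (dsw_sq hac), map_neg]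

theorem Proj_of_mem (h : SmallOdd σ) {a b c : Fin 2 ↪ Fin r} {v : V} (hv : v ∈ Line σ a b c) :
    Proj σ a b c v = v := by
  rw [mem_Line] at hv
  rw [Proj, Module.End.mul_apply, h.Pr_of_neg hv.2, h.Pr_of_neg hv.1]

theorem Proj_symm {a b c : Fin 2 ↪ Fin r} (hab : Dis a b) (hac : Dis a c) (hbc : Dis b c) :
    Proj σ a b c = Proj σ a c b := LinearMap.ext fun v => by
  simp only [Proj, Module.End.mul_apply, Pr_apply, map_smul, map_sub,
    rep_comm_apply σ (dsw_comm hab hac hbc)]
  module

theorem dsw_mem (a b : Fin 2 ↪ Fin r) (hab : Dis a b) : (dsw a b).1 (a 0) = a 1 := by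
  show swap (a 0) (a 1) (swap (b 0) (b 1) (a 0)) = a 1
  rw [swap_apply_of_ne_of_ne (hab 0 0) (hab 0 1), swap_apply_left]

/-- One may change the third pair by a disjoint one. -/
theorem Proj_change (h : SmallOdd σ) {a b c d : Fin 2 ↪ Fin r} (hab : Dis a b) (hac : Dis a c) (had : Dis a d)
    (hbc : Dis b c) (hbd : Dis b d) (hcd : Dis c d) : Proj σ a b c = Proj σ a b d := by
  have hcomm : dsw a c * dsw a d = dsw a d * dsw a c := dsw_comm hac had hcd
  by_cases heq : Line σ a b c = Line σ a b d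
  · refine idem_eq (fun x => h.Proj_of_mem (Proj_mem hab hac hbc x))
      (fun x => h.Proj_of_mem (Proj_mem hab had hbd x)) (fun x => ?_)
      (fun x => ⟨_, h.Proj_of_mem (heq ▸ Proj_mem hab had hbd x)⟩)
      (fun x => ⟨_, h.Proj_of_mem (heq ▸ Proj_mem hab hac hbc x)⟩)
    simp only [Proj, Module.End.mul_apply, Pr_apply, map_smul, map_sub,
      rep_comm_apply σ (dsw_comm hab hac hbc).symm, rep_comm_apply σ (dsw_comm hab had hbd).symm,
      rep_comm_apply σ hcomm.symm]
    module
  · exfalso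
    have inv : ∀ c d : Fin 2 ↪ Fin r, Dis a c → Dis a d → Dis b c → Dis b d → Dis c d →
        Line σ a b c ≠ Line σ a b d → ∀ v ∈ Line σ a b c, σ (dsw a d) v = v := by
      intro c d hac had hbc hbd hcd hne v hv
      by_cases hv0 : v = 0
      · simp [hv0]
      obtain ⟨w, hw0, hw⟩ := finrank_eq_one_iff'.1 (h.finrank_Line hab hac hbc)
      have hm : σ (dsw a d) v ∈ Line σ a b c := by
        rw [mem_Line] at hv ⊢
        rw [rep_comm_apply σ (dsw_comm hab had hbd), hv.1, rep_comm_apply σ (dsw_comm hac had hcd), hv.2]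
        simp
      obtain ⟨l, hl⟩ := hw ⟨v, hv⟩
      obtain ⟨l', hl'⟩ := hw ⟨_, hm⟩
      have hl0 : l ≠ 0 := fun e => hv0 (by rw [e, zero_smul] at hl; exact (congrArg Subtype.val hl).symm)
      have hl1 : l • (w : V) = v := congrArg Subtype.val hl
      have hl2 : l' • (w : V) = σ (dsw a d) v := congrArg Subtype.val hl'
      obtain ⟨μ, hμ⟩ : ∃ μ : k, σ (dsw a d) v = μ • v :=
        ⟨l' / l, by rw [← hl2, ← hl1, smul_smul, div_mul_cancel₀ _ hl0]⟩
      have h2 : (μ * μ - 1) • v = 0 := by
        have := rep_mul_apply σ (dsw a d) (dsw a d) v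
        rw [dsw_sq had, map_one, Module.End.one_apply, hμ, map_smul, hμ, smul_smul] at this
        rw [sub_smul, one_smul, ← this, sub_self]
      have : (μ - 1) * (μ + 1) = 0 := by
        linear_combination (smul_eq_zero.1 h2).resolve_right hv0
      rcases mul_eq_zero.1 this with e | e
      · rw [hμ, sub_eq_zero.1 e, one_smul]
      · exfalso
        refine hne (Submodule.eq_of_le_of_finrank_le ?_ (by rw [h.finrank_Line hab hac hbc, h.finrank_Line hab had hbd]))
        intro u hu
        obtain ⟨lu, hlu⟩ := hw ⟨u, hu⟩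
        have hlu1 : lu • (w : V) = u := congrArg Subtype.val hlu
        have hu' : u = (lu / l) • v := by rw [← hlu1, ← hl1, smul_smul, div_mul_cancel₀ _ hl0]
        rw [hu']
        refine Submodule.smul_mem _ _ (mem_Line.2 ⟨(mem_Line.1 hv).1, ?_⟩)
        rw [hμ, eq_neg_of_add_eq_zero_left e, neg_one_smul]
    have e12 : Line σ a b c ⊔ Line σ a b d = Module.End.eigenspace (σ (dsw a b)) (-1) := by
      refine Submodule.eq_of_le_of_finrank_le (sup_le inf_le_left inf_le_left) ?_
      have hsum := Submodule.finrank_sup_add_finrank_inf_eq (Line σ a b c) (Line σ a b d)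
      have hlt : finrank k (Line σ a b c ⊓ Line σ a b d : Submodule k V) = 0 := by
        by_contra hne
        apply heq
        have h1 := h.finrank_Line hab hac hbc
        have h2 := h.finrank_Line hab had hbd
        refine (Submodule.eq_of_le_of_finrank_le inf_le_left ?_).symm.trans
          (Submodule.eq_of_le_of_finrank_le inf_le_right ?_) <;> omega
      rw [hlt, h.finrank_Line hab hac hbc, h.finrank_Line hab had hbd] at hsum
      rw [h.neg_dsw hab]
      omega
    have hle : Module.End.eigenspace (σ (dsw a b)) (-1) ≤ Module.End.eigenspace (σ (dsw c d)) (-1) := by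
      rw [← e12]
      refine sup_le (fun v hv => ?_) fun v hv => ?_
      · rw [mem_neg, ← dsw_mul hac, rep_mul_apply, inv c d hac had hbc hbd hcd heq v hv]
        exact (mem_Line.1 hv).2
      · rw [mem_neg, ← dsw_mul hac, rep_mul_apply, (mem_Line.1 hv).2, map_neg,
          inv d c had hac hbd hbc hcd.symm (Ne.symm heq) v hv]
    have hEE : Module.End.eigenspace (σ (dsw a b)) (-1) = Module.End.eigenspace (σ (dsw c d)) (-1) :=
      Submodule.eq_of_le_of_finrank_le hle (by rw [h.neg_dsw hab, h.neg_dsw hcd])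
    have hxy : dsw a b * dsw c d = dsw c d * dsw a b := by
      apply Subtype.ext
      show swap (a 0) (a 1) * swap (b 0) (b 1) * (swap (c 0) (c 1) * swap (d 0) (d 1)) =
        swap (c 0) (c 1) * swap (d 0) (d 1) * (swap (a 0) (a 1) * swap (b 0) (b 1))
      have ca : Commute (swap (a 0) (a 1)) (swap (c 0) (c 1)) := swap_comm_of_dis hac
      have da : Commute (swap (a 0) (a 1)) (swap (d 0) (d 1)) := swap_comm_of_dis had
      have cb : Commute (swap (b 0) (b 1)) (swap (c 0) (c 1)) := swap_comm_of_dis hbc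
      have db : Commute (swap (b 0) (b 1)) (swap (d 0) (d 1)) := swap_comm_of_dis hbd
      exact ((ca.mul_right da).mul_left (cb.mul_right db)).eq
    have hPP : Pr σ (dsw a b) = Pr σ (dsw c d) := by
      refine idem_eq (fun x => h.Pr_of_neg (neg_Pr (dsw_sq hab) x)) (fun x => h.Pr_of_neg (neg_Pr (dsw_sq hcd) x))
        (fun x => ?_) (fun x => ⟨Pr σ (dsw c d) x, ?_⟩) (fun x => ⟨Pr σ (dsw a b) x, ?_⟩)
      · simp only [Pr_apply, map_smul, map_sub, rep_comm_apply σ hxy]
        module
      · exact h.Pr_of_neg (mem_neg.1 (hEE ▸ mem_neg.2 (neg_Pr (dsw_sq hcd) x)))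
      · exact h.Pr_of_neg (mem_neg.1 (hEE ▸ mem_neg.2 (neg_Pr (dsw_sq hab) x)))
    have hσ : σ (dsw a b) = σ (dsw c d) := LinearMap.ext fun x => by
      have := DFunLike.congr_fun hPP x
      rw [Pr_apply, Pr_apply] at this
      have h' := smul_right_injective V (inv_ne_zero h.char) this
      exact sub_right_injective h'
    have hg : dsw a b = dsw c d := by
      have := h.inj (dsw a b * (dsw c d)⁻¹) (by rw [map_mul, hσ, ← map_mul, mul_inv_cancel, map_one])
      rwa [mul_inv_eq_one] at this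
    have h1 := dsw_mem a b hab
    rw [hg] at h1
    have h2 : (dsw c d).1 (a 0) = a 0 := by
      show swap (c 0) (c 1) (swap (d 0) (d 1) (a 0)) = a 0
      rw [swap_apply_of_ne_of_ne (had 0 0) (had 0 1), swap_apply_of_ne_of_ne (hac 0 0) (hac 0 1)]
    rw [h2] at h1
    exact absurd (a.injective h1) (by decide)

theorem exists_pair (S : Finset (Fin r)) (h : S.card + 2 ≤ r) :
    ∃ e : Fin 2 ↪ Fin r, ∀ i, e i ∉ S := by
  have : 1 < Sᶜ.card := by rw [Finset.card_compl, Fintype.card_fin]; omega
  obtain ⟨a, ha, b, hb, hab⟩ := Finset.one_lt_card.1 this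
  rw [Finset.mem_compl] at ha hb
  exact ⟨mkEmb ![a, b] (by
    intro i j hij
    fin_cases i <;> fin_cases j <;> simp at hij ⊢ <;> first | exact hab hij | exact hab hij.symm),
    fun i => by fin_cases i <;> assumption⟩

theorem dis_of {a b : Fin 2 ↪ Fin r} {S : Finset (Fin r)} (hS : Finset.univ.map a ⊆ S)
    (hb : ∀ i, b i ∉ S) : Dis a b := fun i j e =>
  hb j (e ▸ hS (Finset.mem_map.2 ⟨i, Finset.mem_univ _, rfl⟩))

theorem Proj_change' (h : SmallOdd σ) {a b c c' : Fin 2 ↪ Fin r} (hab : Dis a b) (hac : Dis a c) (hac' : Dis a c')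
    (hbc : Dis b c) (hbc' : Dis b c') : Proj σ a b c = Proj σ a b c' := by
  by_cases hcc : Dis c c'
  · exact h.Proj_change hab hac hac' hbc hbc' hcc
  · classical
    let S := Finset.univ.map a ∪ Finset.univ.map b ∪ (Finset.univ.map c ∪ Finset.univ.map c')
    have hcard : S.card ≤ 7 := by
      have h1 : (Finset.univ.map c ∪ Finset.univ.map c').card ≤ 3 := by
        have hi : 0 < (Finset.univ.map c ∩ Finset.univ.map c').card := by
          simp only [Dis, not_forall, not_not] at hcc
          obtain ⟨i, j, e⟩ := hcc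
          exact Finset.card_pos.2 ⟨c i, Finset.mem_inter.2 ⟨by simp, by simp [e]⟩⟩
        have := Finset.card_union_add_card_inter (Finset.univ.map c) (Finset.univ.map c')
        simp only [Finset.card_map, Finset.card_univ, Fintype.card_fin] at this
        omega
      refine (Finset.card_union_le _ _).trans (le_trans (Nat.add_le_add (Finset.card_union_le _ _) h1) ?_)
      simp
    obtain ⟨d, hd⟩ := exists_pair S (by have := h.deg; omega)
    have sa : Dis a d := dis_of (fun x hx => Finset.mem_union_left _ (Finset.mem_union_left _ hx)) hd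
    have sb : Dis b d := dis_of (fun x hx => Finset.mem_union_left _ (Finset.mem_union_right _ hx)) hd
    have sc : Dis c d := dis_of (fun x hx => Finset.mem_union_right _ (Finset.mem_union_left _ hx)) hd
    have sc' : Dis c' d := dis_of (fun x hx => Finset.mem_union_right _ (Finset.mem_union_right _ hx)) hd
    rw [h.Proj_change hab hac sa hbc sb sc, ← h.Proj_change hab hac' sa hbc' sb sc']

theorem Proj_indep (h : SmallOdd σ) {a b c b' c' : Fin 2 ↪ Fin r} (hab : Dis a b) (hac : Dis a c) (hbc : Dis b c)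
    (hab' : Dis a b') (hac' : Dis a c') (hbc' : Dis b' c') : Proj σ a b c = Proj σ a b' c' := by
  classical
  let S := Finset.univ.map a ∪ (Finset.univ.map b ∪ Finset.univ.map b')
  obtain ⟨d, hd⟩ := exists_pair S (by
    have h6 : S.card ≤ 2 + (2 + 2) := (Finset.card_union_le _ _).trans
      (Nat.add_le_add (by simp) ((Finset.card_union_le _ _).trans (by simp)))
    have := h.deg
    omega)
  have sa : Dis a d := dis_of Finset.subset_union_left hd
  have sb : Dis b d := dis_of (fun x hx => Finset.mem_union_right _ (Finset.mem_union_left _ hx)) hd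
  have sb' : Dis b' d := dis_of (fun x hx => Finset.mem_union_right _ (Finset.mem_union_right _ hx)) hd
  rw [h.Proj_change' hab hac sa hbc sb, Proj_symm hab sa sb, h.Proj_change' sa hab hab' sb.symm sb'.symm,
    Proj_symm sa hab' sb'.symm, h.Proj_change' hab' sa hac' sb' hbc']

end SmallOdd

end CfsgLib.AltLinear
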