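import Cfsg.Agent.AltLinear.Klein

/-!
Double transpositions in a small faithful module of an alternating group, characteristic not two:
their `-1`-eigenspaces are planes, split into canonical lines attached to the two transpositions.
-/

set_option autoImplicit false
set_option linter.unusedSectionVars false

namespace CfsgLib.AltLinear

open Module Equiv

universe u v

variable {k : Type u} [Field k] [IsAlgClosed k] {V : Type v} [AddCommGroup V] [Module k V]
  [FiniteDimensional k V] {r : ℕ}

/-- The hypotheses on the module. -/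
structure SmallOdd (σ : Representation k (Alt r) V) : Prop where
  char : (2 : k) ≠ 0
  deg : 9 ≤ r
  inj : ∀ g, σ g = 1 → g = 1
  dim : finrank k V + 2 ≤ r
  dim' : (r : k) = 0 → finrank k V + 3 ≤ r

/-- A seven-letter alternating group has no non-trivial module of dimension less than four. -/
theorem four_le_alt_seven {W : Type v} [AddCommGroup W] [Module k W] [FiniteDimensional k W]
    (σ : Representation k (Alt 7) W) (hσ : ∃ g, σ g ≠ 1) : 4 ≤ finrank k W := by
  by_cases h3 : (3 : k) = 0
  · have h5 : (5 : k) ≠ 0 := fun h5 => one_ne_zero (α := k) (by linear_combination (2 : k) * h3 - h5)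
    let e : Fin 5 ↪ Fin 7 := mkEmb ![0, 1, 2, 3, 4] (by decide)
    obtain ⟨g, hg⟩ := hσ
    have hne : σ (em e c5) ≠ 1 := fun h =>
      hg (eq_one_of_map_eq_one (by norm_num) σ (em_ne_one e c5_ne_one) h g)
    obtain ⟨ζ, hζ, hall⟩ := exists_fourEigen σ h5 le_rfl e hne
    have := four_le_of_eigen (σ (em e c5)) hζ ⊤ (fun x _ => Submodule.mem_top) fun i hi => by
      obtain ⟨v, hv, hve⟩ := hall i hi
      exact ⟨v, Submodule.mem_top, hv, hve⟩
    simpa using this
  · exact weakThree h3 2 7 (by norm_num) (by norm_num) σ hσ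

theorem range_quad {q : Fin 4 ↪ Fin r} : ∀ q', (q' = q ∨ q' = rot q ∨ q' = rot (rot q)) →
    ∀ j, ∃ j', q' j = q j' := by
  rintro q' (rfl | rfl | rfl) j <;> exact ⟨_, rfl⟩

variable {σ : Representation k (Alt r) V}

namespace SmallOdd

theorem finrank_J_conj (h : SmallOdd σ) (q q' : Fin 4 ↪ Fin r) :
    finrank k (J σ q') = finrank k (J σ q) := by
  obtain ⟨g, hg⟩ := exists_em_conj q q' (by have := h.deg; omega)
  rw [J, J, ← hg t4, ← hg u4, ← map_eigen_conj, ← map_eigen_conj,
    ← Submodule.map_inf _ (rep_injective σ _), finrank_map_rep]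

/-- Disjoint Klein groups fix each other's weight spaces. -/
theorem fix (h : SmallOdd σ) (q q' : Fin 4 ↪ Fin r) (hd : ∀ i j, q' i ≠ q j) {x : V} (hx : x ∈ J σ q) :
    σ (em q' t4) x = x := by
  by_contra hne
  have hr := h.deg
  have hdim := h.dim
  obtain ⟨d, hd', hfac⟩ := exists_complement q
  obtain ⟨d', hd''⟩ := hfac q' hd
  have hU : ∀ g, ∀ y ∈ J σ q, σ (em d g) y ∈ J σ q := fun g y hy =>
    Submodule.mem_inf.2 ⟨eigen_invariant σ (em_comm d q g t4 hd') 1 y (Submodule.mem_inf.1 hy).1,
      eigen_invariant σ (em_comm d q g u4 hd') (-1) y (Submodule.mem_inf.1 hy).2⟩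
  set σ' := restrictRep (σ.comp (em d)) _ hU
  have hnt : ∃ g, σ' g ≠ 1 := ⟨em d' t4, fun h1 => hne (by
    have := (restrictRep_eq_one_iff _ _ hU _).1 h1 x hx
    rwa [MonoidHom.comp_apply, em_trans, hd''] at this)⟩
  have hsum := sum_J_le σ h.char (fun _ : Unit => q) (fun i i' hne => absurd (Subsingleton.elim i i') hne)
  simp at hsum
  by_cases h11 : r = 11
  · subst h11
    have : 4 ≤ finrank k (J σ q) := four_le_alt_seven (k := k) (σ' : Representation k (Alt 7) (J σ q)) hnt
    omega
  · have := weakKlein h.char ((r - 4) / 4) (r - 4) (by omega) (by omega) σ' hnt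
    omega

theorem finrank_J (h : SmallOdd σ) (q : Fin 4 ↪ Fin r) : finrank k (J σ q) = 1 := by
  have hr := h.deg
  have hdim := h.dim
  let b : Fin (r / 4) → Fin 4 ↪ Fin r := fun i => mkEmb (fun j => ⟨4 * i.val + j.val, by omega⟩)
    (fun a a' h => Fin.ext (by simpa using congrArg Fin.val h))
  have hb : ∀ i i', i ≠ i' → ∀ j j', b i j ≠ b i' j' := fun i i' hii j j' h => by
    have : 4 * i.val + j.val = 4 * i'.val + j'.val := congrArg Fin.val h
    have := j.isLt
    have := j'.isLt
    exact hii (Fin.ext (by omega))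
  have := sum_J_le σ h.char b fun i i' hii p hp x hx => by
    have hdis : ∀ (π : Fin 4 → Fin 4) a c, b i' (π a) ≠ p c := fun π a c e => by
      obtain ⟨c', hc'⟩ := range_quad p hp c
      exact hb i' i (Ne.symm hii) _ c' (e.trans hc')
    refine ⟨h.fix p (b i') (fun a c => hdis id a c) hx, ?_⟩
    have := h.fix p (rot (b i')) (fun a c => hdis rho a c) hx
    rwa [em_rot_t] at this
  rw [Finset.sum_congr rfl fun i _ => by rw [h.finrank_J_conj q (b i)]] at this
  simp only [Finset.sum_const, Finset.card_univ, Fintype.card_fin, smul_eq_mul] at this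
  have hpos := pos_J σ h.char q fun h1 => em_ne_one q t4_ne_one (h.inj _ h1)
  by_contra hne
  have h2 : r / 4 * (3 * 2) ≤ r / 4 * (3 * finrank k (J σ q)) :=
    Nat.mul_le_mul le_rfl (Nat.mul_le_mul le_rfl (by omega))
  omega

theorem finrank_neg (h : SmallOdd σ) (q : Fin 4 ↪ Fin r) :
    finrank k (Module.End.eigenspace (σ (em q t4)) (-1)) = 2 := by
  have e1 : J σ (rot q) ⊔ J σ (rot (rot q)) = Module.End.eigenspace (σ (em q t4)) (-1) := by
    refine le_antisymm (sup_le (fun x hx => ?_) fun x hx => ?_) fun x hx => ?_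
    · rw [Module.End.mem_eigenspace_iff, neg_one_smul]; exact (mem_J_rot.1 hx).1
    · rw [Module.End.mem_eigenspace_iff, neg_one_smul]; exact (mem_J_rot_rot.1 hx).1
    · rw [Module.End.mem_eigenspace_iff, neg_one_smul] at hx
      have hU := (rep_invol σ q x).2
      have hTU : σ (em q t4) (σ (em q u4) x) = -(σ (em q u4) x) := by rw [rep_tu_comm σ q x, hx, map_neg]
      have : x = (2 : k)⁻¹ • (x + σ (em q u4) x) + (2 : k)⁻¹ • (x - σ (em q u4) x) := by
        rw [← smul_add, add_add_sub_cancel, ← two_smul k x, smul_smul, inv_mul_cancel₀ h.char, one_smul]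
      rw [this]
      refine Submodule.add_mem_sup (Submodule.smul_mem _ _ (mem_J_rot.2 ⟨?_, ?_⟩))
        (Submodule.smul_mem _ _ (mem_J_rot_rot.2 ⟨?_, ?_⟩))
      · rw [map_add, hx, hTU]; abel
      · rw [map_add, hU, add_comm]
      · rw [map_sub, hx, hTU]; abel
      · rw [map_sub, hU]; abel
  have e2 : J σ (rot q) ⊓ J σ (rot (rot q)) = ⊥ := (Submodule.eq_bot_iff _).2 fun x hx => by
    have h1 := (mem_J_rot.1 (Submodule.mem_inf.1 hx).1).2
    have h2 := (mem_J_rot_rot.1 (Submodule.mem_inf.1 hx).2).2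
    rw [h1, eq_neg_iff_add_eq_zero, ← two_smul k x] at h2
    exact (smul_eq_zero.1 h2).resolve_left h.char
  have := Submodule.finrank_sup_add_finrank_inf_eq (J σ (rot q)) (J σ (rot (rot q)))
  rw [e1, e2, finrank_bot, h.finrank_J, h.finrank_J] at this
  simpa using this

end SmallOdd

end CfsgLib.AltLinear
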