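import Cfsg.Agent.AltLinear.Odd

/-!
The transpositions act as reflections whose Cartan matrix is of type `A`, whence the degree bound.
-/

set_option autoImplicit false
set_option linter.unusedSectionVars false

namespace CfsgLib.AltLinear

open Module Equiv

universe u v

variable {k : Type u} [Field k] [IsAlgClosed k] {V : Type v} [AddCommGroup V] [Module k V]
  [FiniteDimensional k V] {r : ℕ} {σ : Representation k (Alt r) V}

/-- A pair of letters. -/
def pair2 {i j : Fin r} (h : i ≠ j) : Fin 2 ↪ Fin r := mkEmb ![i, j] (by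
  intro a b hab
  fin_cases a <;> fin_cases b <;> simp at hab ⊢ <;> first | exact h hab | exact h hab.symm)

/-- The pair with the two letters interchanged. -/
def flip2 (a : Fin 2 ↪ Fin r) : Fin 2 ↪ Fin r := (swap (0 : Fin 2) 1).toEmbedding.trans a

theorem emb2_ext {a b : Fin 2 ↪ Fin r} (h0 : a 0 = b 0) (h1 : a 1 = b 1) : a = b :=
  Function.Embedding.ext fun i => by fin_cases i <;> assumption

theorem dis_flip {a b : Fin 2 ↪ Fin r} (h : Dis a b) : Dis (flip2 a) b := fun i j => h _ j

theorem dsw_flip (a b : Fin 2 ↪ Fin r) : dsw (flip2 a) b = dsw a b := by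
  apply Subtype.ext
  show swap (a 1) (a 0) * swap (b 0) (b 1) = swap (a 0) (a 1) * swap (b 0) (b 1)
  rw [swap_comm]

namespace SmallOdd

theorem exists_two_pairs (h : SmallOdd σ) (a : Fin 2 ↪ Fin r) :
    ∃ b c : Fin 2 ↪ Fin r, Dis a b ∧ Dis a c ∧ Dis b c := by
  classical
  have := h.deg
  obtain ⟨b, hb⟩ := exists_pair (Finset.univ.map a) (by simp; omega)
  obtain ⟨c, hc⟩ := exists_pair (Finset.univ.map a ∪ Finset.univ.map b) (by
    have h4 : (Finset.univ.map a ∪ Finset.univ.map b).card ≤ 2 + 2 :=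
      (Finset.card_union_le _ _).trans (by simp)
    omega)
  exact ⟨b, c, dis_of subset_rfl hb, dis_of Finset.subset_union_left hc, dis_of Finset.subset_union_right hc⟩

/-- The canonical projection attached to a transposition. -/
noncomputable def Qp (σ : Representation k (Alt r) V) (h : SmallOdd σ) (a : Fin 2 ↪ Fin r) : Module.End k V :=
  Proj σ a (h.exists_two_pairs a).choose (h.exists_two_pairs a).choose_spec.choose

theorem Qp_eq (h : SmallOdd σ) {a b c : Fin 2 ↪ Fin r} (hab : Dis a b) (hac : Dis a c) (hbc : Dis b c) :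
    Qp σ h a = Proj σ a b c :=
  h.Proj_indep (h.exists_two_pairs a).choose_spec.choose_spec.1 (h.exists_two_pairs a).choose_spec.choose_spec.2.1
    (h.exists_two_pairs a).choose_spec.choose_spec.2.2 hab hac hbc

theorem Qp_flip (h : SmallOdd σ) (a : Fin 2 ↪ Fin r) : Qp σ h (flip2 a) = Qp σ h a := by
  obtain ⟨b, c, hab, hac, hbc⟩ := h.exists_two_pairs a
  rw [h.Qp_eq hab hac hbc, h.Qp_eq (dis_flip hab) (dis_flip hac) hbc, Proj, Proj, dsw_flip, dsw_flip]

theorem Qp_equiv (h : SmallOdd σ) (g : Alt r) (a : Fin 2 ↪ Fin r) (x : V) :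
    σ g (Qp σ h a x) = Qp σ h (a.trans g.1.toEmbedding) (σ g x) := by
  obtain ⟨b, c, hab, hac, hbc⟩ := h.exists_two_pairs a
  have hd : ∀ {p q : Fin 2 ↪ Fin r}, Dis p q → Dis (p.trans g.1.toEmbedding) (q.trans g.1.toEmbedding) :=
    fun hpq i j e => hpq i j (g.1.injective e)
  have hPr : ∀ (y : Alt r) (v : V), σ g (Pr σ y v) = Pr σ (g * y * g⁻¹) (σ g v) := fun y v => by
    simp only [Pr_apply, map_smul, map_sub, rep_mul_apply, rep_inv_apply]
  rw [h.Qp_eq hab hac hbc, h.Qp_eq (hd hab) (hd hac) (hd hbc), Proj, Proj, ← dsw_conj g a b, ← dsw_conj g a c,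
    Module.End.mul_apply, Module.End.mul_apply, hPr, hPr]

theorem Qp_idem (h : SmallOdd σ) (a : Fin 2 ↪ Fin r) (x : V) : Qp σ h a (Qp σ h a x) = Qp σ h a x := by
  obtain ⟨b, c, hab, hac, hbc⟩ := h.exists_two_pairs a
  rw [h.Qp_eq hab hac hbc]
  exact h.Proj_of_mem (Proj_mem hab hac hbc x)

theorem Qp_orth (h : SmallOdd σ) {a b : Fin 2 ↪ Fin r} (hab : Dis a b) (x : V) : Qp σ h a (Qp σ h b x) = 0 := by
  classical
  obtain ⟨c, hc⟩ := exists_pair (Finset.univ.map a ∪ Finset.univ.map b) (by
    have h4 : (Finset.univ.map a ∪ Finset.univ.map b).card ≤ 2 + 2 :=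
      (Finset.card_union_le _ _).trans (by simp)
    have := h.deg
    omega)
  have hac : Dis a c := dis_of Finset.subset_union_left hc
  have hbc : Dis b c := dis_of Finset.subset_union_right hc
  rw [h.Qp_eq hab hac hbc, h.Qp_eq hab.symm hbc hac]
  obtain ⟨h1, h2⟩ := mem_Line.1 (Proj_mem (σ := σ) hab.symm hbc hac x)
  set y := Proj σ b a c x
  have hy : σ (dsw a c) y = y := by
    rw [← dsw_mul hab.symm, rep_mul_apply, h2, map_neg, h1, neg_neg]
  rw [Proj, Module.End.mul_apply, Pr_apply σ (dsw a c), hy, sub_self, smul_zero, map_zero]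

theorem Qp_add (h : SmallOdd σ) {a b : Fin 2 ↪ Fin r} (hab : Dis a b) (x : V) :
    Qp σ h a x + Qp σ h b x = Pr σ (dsw a b) x := by
  classical
  obtain ⟨c, hc⟩ := exists_pair (Finset.univ.map a ∪ Finset.univ.map b) (by
    have h4 : (Finset.univ.map a ∪ Finset.univ.map b).card ≤ 2 + 2 :=
      (Finset.card_union_le _ _).trans (by simp)
    have := h.deg
    omega)
  have hac : Dis a c := dis_of Finset.subset_union_left hc
  have hbc : Dis b c := dis_of Finset.subset_union_right hc
  rw [h.Qp_eq hab hac hbc, h.Qp_eq hab.symm hbc hac, Proj, Proj, dsw_symm hab.symm, Module.End.mul_apply,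
    Module.End.mul_apply]
  have hneg := neg_Pr (σ := σ) (dsw_sq hab) x
  set z := Pr σ (dsw a b) x
  have e : σ (dsw a c) z + σ (dsw b c) z = 0 := by
    rw [← dsw_mul hab, rep_mul_apply, rep_comm_apply σ (dsw_comm hab hac hbc), hneg, map_neg, add_neg_cancel]
  have hz : Pr σ (dsw a c) z + Pr σ (dsw b c) z = z := by
    rw [Pr_apply, Pr_apply, ← smul_add,
      show z - σ (dsw a c) z + (z - σ (dsw b c) z) = z + z - (σ (dsw a c) z + σ (dsw b c) z) by abel,
      e, sub_zero, ← two_smul k z, smul_smul, inv_mul_cancel₀ h.char, one_smul]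
  have hc1 : ∀ v, Pr σ (dsw a b) (Pr σ (dsw a c) v) = Pr σ (dsw a c) (Pr σ (dsw a b) v) := fun v => by
    simp only [Pr_apply, map_smul, map_sub, rep_comm_apply σ (dsw_comm hab hac hbc)]
    module
  have hc2 : ∀ v, Pr σ (dsw a b) (Pr σ (dsw b c) v) = Pr σ (dsw b c) (Pr σ (dsw a b) v) := fun v => by
    have hcm : dsw a b * dsw b c = dsw b c * dsw a b := by
      have := dsw_comm hab.symm hbc hac
      rwa [dsw_symm hab.symm] at this
    simp only [Pr_apply, map_smul, map_sub, rep_comm_apply σ hcm]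
    module
  rw [hc1, hc2, hz]

/-- The reflection attached to a transposition. -/
noncomputable def Rp (σ : Representation k (Alt r) V) (h : SmallOdd σ) (a : Fin 2 ↪ Fin r) (x : V) : V :=
  x - (2 : k) • Qp σ h a x

theorem Rp_mul (h : SmallOdd σ) {a b : Fin 2 ↪ Fin r} (hab : Dis a b) (x : V) :
    Rp σ h a (Rp σ h b x) = σ (dsw a b) x := by
  have e := h.Qp_add hab x
  rw [Pr_apply] at e
  have e2 : (2 : k) • (Qp σ h a x + Qp σ h b x) = x - σ (dsw a b) x := by
    rw [e, smul_smul, mul_inv_cancel₀ h.char, one_smul]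
  simp only [Rp, map_sub, map_smul, h.Qp_orth hab, smul_zero, sub_zero]
  rw [sub_sub, ← smul_add, add_comm, e2, sub_sub_cancel]

theorem Rp_invol (h : SmallOdd σ) (a : Fin 2 ↪ Fin r) (x : V) : Rp σ h a (Rp σ h a x) = x := by
  simp only [Rp, map_sub, map_smul, h.Qp_idem]
  module

theorem Rp_braid (h : SmallOdd σ) {i j l : Fin r} (hij : i ≠ j) (hil : i ≠ l) (hjl : j ≠ l) (x : V) :
    Rp σ h (pair2 hij) (Rp σ h (pair2 hil) (Rp σ h (pair2 hij) x)) =
      Rp σ h (pair2 hil) (Rp σ h (pair2 hij) (Rp σ h (pair2 hil) x)) := by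
  classical
  set a := pair2 hij with ha
  set b := pair2 hil with hb
  obtain ⟨d, hd⟩ := exists_pair ({i, j, l} : Finset (Fin r)) (by
    have := Finset.card_le_three (a := i) (b := j) (c := l)
    have := h.deg
    omega)
  simp only [Finset.mem_insert, Finset.mem_singleton, not_or] at hd
  have had : Dis a d := fun s t e => by
    fin_cases s
    · exact (hd t).1 e.symm
    · exact (hd t).2.1 e.symm
  have hbd : Dis b d := fun s t e => by
    fin_cases s
    · exact (hd t).1 e.symm
    · exact (hd t).2.2 e.symm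
  have conj : ∀ (p q : Fin 2 ↪ Fin r), Dis p d → Dis q d → ∀ y,
      Rp σ h p (Rp σ h q (Rp σ h p y)) = Rp σ h (q.trans (dsw p d).1.toEmbedding) y := by
    intro p q hpd hqd y
    have e1 : Rp σ h p (Rp σ h d (Rp σ h q (Rp σ h d (Rp σ h p y)))) =
        σ (dsw p d) (Rp σ h q (σ (dsw p d) y)) := by
      rw [h.Rp_mul hpd, dsw_symm hpd, ← h.Rp_mul hpd.symm y, dsw_symm hpd.symm]
    have e2 : ∀ z, Rp σ h d (Rp σ h q (Rp σ h d z)) = Rp σ h q z := fun z => by
      rw [h.Rp_mul hqd.symm, dsw_symm hqd.symm, ← h.Rp_mul hqd, h.Rp_invol]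
    rw [e2] at e1
    rw [e1]
    have hyy : σ (dsw p d) (σ (dsw p d) y) = y := by rw [← rep_mul_apply, dsw_sq hpd, map_one]; rfl
    simp only [Rp, map_sub, map_smul, h.Qp_equiv, hyy]
  have fixd : ∀ (p : Fin 2 ↪ Fin r) (z : Fin r), (∀ t, d t ≠ z) → (dsw p d).1 z = swap (p 0) (p 1) z := by
    intro p z hz
    show swap (p 0) (p 1) (swap (d 0) (d 1) z) = _
    rw [swap_apply_of_ne_of_ne (hz 0).symm (hz 1).symm]
  rw [conj a b had hbd, conj b a hbd had]
  have ei : ∀ t, d t ≠ i := fun t => (hd t).1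
  have ej : ∀ t, d t ≠ j := fun t => (hd t).2.1
  have el : ∀ t, d t ≠ l := fun t => (hd t).2.2
  have hA : b.trans (dsw a d).1.toEmbedding = pair2 hjl := emb2_ext
    (show (dsw a d).1 i = j by rw [fixd a i ei]; exact swap_apply_left _ _)
    (show (dsw a d).1 l = l by rw [fixd a l el]; exact swap_apply_of_ne_of_ne hil.symm hjl.symm)
  have hB : a.trans (dsw b d).1.toEmbedding = flip2 (pair2 hjl) := emb2_ext
    (show (dsw b d).1 i = l by rw [fixd b i ei]; exact swap_apply_left _ _)
    (show (dsw b d).1 j = j by rw [fixd b j ej]; exact swap_apply_of_ne_of_ne hij.symm hjl)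
  rw [hA, hB, Rp, Rp, h.Qp_flip]

theorem exists_rank_one (h : SmallOdd σ) (a : Fin 2 ↪ Fin r) : ∃ (v : V) (f : V →ₗ[k] k), v ≠ 0 ∧
    f v = 1 ∧ ∀ x, Qp σ h a x = f x • v := by
  obtain ⟨b, c, hab, hac, hbc⟩ := h.exists_two_pairs a
  obtain ⟨w, hw0, hw⟩ := finrank_eq_one_iff'.1 (h.finrank_Line hab hac hbc)
  have hv0 : (w : V) ≠ 0 := fun e => hw0 (Subtype.ext e)
  have hL : Line σ a b c = k ∙ (w : V) := le_antisymm
    (fun x hx => by
      obtain ⟨l, hl⟩ := hw ⟨x, hx⟩
      exact Submodule.mem_span_singleton.2 ⟨l, congrArg Subtype.val hl⟩)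
    (Submodule.span_le.2 (Set.singleton_subset_iff.2 w.2))
  obtain ⟨f, hf⟩ := exists_coord (Line σ a b c) (Qp σ h a)
    (fun x => by rw [h.Qp_eq hab hac hbc]; exact Proj_mem hab hac hbc x) hv0 hL
  refine ⟨w, f, hv0, ?_, hf⟩
  have := hf w
  rw [h.Qp_eq hab hac hbc, h.Proj_of_mem w.2] at this
  by_contra hne
  exact hv0 ((smul_eq_zero.1 (show (f w - 1) • (w : V) = 0 by
    rw [sub_smul, one_smul, ← this, sub_self])).resolve_left (sub_ne_zero.2 hne))

theorem adjacent_indep (h : SmallOdd σ) (e : Fin 3 ↪ Fin r)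
    (a : Fin 2 ↪ Fin r) (b : Fin 2 ↪ Fin r) (ha0 : a 0 = e 1) (ha1 : a 1 = e 0) (hb0 : b 0 = e 1) (hb1 : b 1 = e 2)
    {u v : V} {f g : V →ₗ[k] k} (hf : ∀ x, Qp σ h a x = f x • v) (hg : ∀ x, Qp σ h b x = g x • u)
    (hfv : f v = 1) (hgu : g u = 1) (l : k) : u ≠ l • v := by
  intro hu
  have hr := h.deg
  -- projections of adjacent transpositions would share their images
  have hsub : ∀ x, Qp σ h a (Qp σ h b x) = Qp σ h b x := fun x => by
    rw [hg, hu, map_smul, map_smul, hf, hfv, one_smul]
  have htrans : ∀ e' : Fin 3 ↪ Fin r, ∀ x,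
      Qp σ h (pair2 (e'.injective.ne (show (1 : Fin 3) ≠ 0 by decide)))
        (Qp σ h (pair2 (e'.injective.ne (show (1 : Fin 3) ≠ 2 by decide))) x) =
      Qp σ h (pair2 (e'.injective.ne (show (1 : Fin 3) ≠ 2 by decide))) x := by
    intro e' x
    obtain ⟨g', hg'⟩ := exists_even_map e e' (by omega)
    have h1 : a.trans g'.1.toEmbedding = pair2 (e'.injective.ne (show (1 : Fin 3) ≠ 0 by decide)) :=
      emb2_ext (show g'.1 (a 0) = e' 1 by rw [ha0, hg']) (show g'.1 (a 1) = e' 0 by rw [ha1, hg'])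
    have h2 : b.trans g'.1.toEmbedding = pair2 (e'.injective.ne (show (1 : Fin 3) ≠ 2 by decide)) :=
      emb2_ext (show g'.1 (b 0) = e' 1 by rw [hb0, hg']) (show g'.1 (b 1) = e' 2 by rw [hb1, hg'])
    have := congrArg (σ g') (hsub (σ g'⁻¹ x))
    rwa [h.Qp_equiv, h.Qp_equiv, rep_apply_inv, h1, h2] at this
  let p : Fin 4 ↪ Fin r := (mkEmb ![0, 1, 2, 3] (by decide) : Fin 4 ↪ Fin 9).trans (Fin.castLEEmb hr)
  let e1 : Fin 3 ↪ Fin r := (mkEmb ![0, 1, 2] (by decide) : Fin 3 ↪ Fin 4).trans p
  let e2 : Fin 3 ↪ Fin r := (mkEmb ![1, 2, 3] (by decide) : Fin 3 ↪ Fin 4).trans p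
  let q01 := pair2 (e1.injective.ne (show (1 : Fin 3) ≠ 0 by decide))
  let q12 := pair2 (e1.injective.ne (show (1 : Fin 3) ≠ 2 by decide))
  let q23 := pair2 (e2.injective.ne (show (1 : Fin 3) ≠ 2 by decide))
  have hq : Qp σ h (pair2 (e2.injective.ne (show (1 : Fin 3) ≠ 0 by decide))) = Qp σ h q12 := by
    rw [← h.Qp_flip q12]
    congr 1
    exact emb2_ext rfl rfl
  have hdis : Dis q01 q23 := fun s t he => by
    fin_cases s <;> fin_cases t <;> exact absurd (p.injective he) (by decide)
  obtain ⟨w, fw, hw0, hfw, hw⟩ := h.exists_rank_one q23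
  have h2 := htrans e2 w
  rw [hq] at h2
  have hw1 : Qp σ h q23 w = w := by rw [hw, hfw, one_smul]
  change Qp σ h q12 (Qp σ h q23 w) = Qp σ h q23 w at h2
  have h1 := htrans e1 w
  change Qp σ h q01 (Qp σ h q12 w) = Qp σ h q12 w at h1
  rw [hw1] at h2
  rw [h2] at h1
  have h3 := h.Qp_orth hdis w
  rw [hw1, h1] at h3
  exact hw0 h3

theorem adjacent_coeff (h : SmallOdd σ) {i j l : Fin r} (hij : i ≠ j) (hil : i ≠ l) (hjl : j ≠ l)
    {u v : V} {f g : V →ₗ[k] k} (hf : ∀ x, Qp σ h (pair2 hij) x = f x • v)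
    (hg : ∀ x, Qp σ h (pair2 hil) x = g x • u) (hfv : f v = 1) (hgu : g u = 1) : 4 * f u * g v = 1 := by
  have hv0 : v ≠ 0 := fun e => by rw [e, map_zero] at hfv; exact zero_ne_one hfv
  have hne : ∀ m : k, u ≠ m • v := h.adjacent_indep (mkEmb ![j, i, l] (by
    intro a b hab
    fin_cases a <;> fin_cases b <;> simp at hab ⊢ <;>
      first | exact hij hab | exact hij hab.symm | exact hil hab | exact hil hab.symm |
        exact hjl hab | exact hjl hab.symm)) (pair2 hij) (pair2 hil) rfl rfl rfl rfl hf hg hfv hgu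
  have hb := h.Rp_braid hij hil hjl u
  simp only [Rp, map_sub, map_smul, hf, hg, hfv, hgu, smul_eq_mul] at hb
  set α := f u
  set β := g v
  by_contra hne1
  have key : (2 * (4 * α * β - 1)) • (u - α • v) = 0 := by
    linear_combination (norm := module) hb
  exact hne α (sub_eq_zero.1 ((smul_eq_zero.1 key).resolve_left (mul_ne_zero h.char (sub_ne_zero.2 hne1))))

/-- A small module satisfying the hypotheses does not exist. -/
theorem false_of_small (h : SmallOdd σ) : False := by
  classical
  have hr := h.deg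
  have hdim := h.dim
  let pt : ℕ → Fin r := fun i => ⟨i % r, Nat.mod_lt _ (by omega)⟩
  have hpt : ∀ i j, i < r → j < r → i ≠ j → pt i ≠ pt j := fun i j hi hj hij e => by
    have : i % r = j % r := congrArg Fin.val e
    rw [Nat.mod_eq_of_lt hi, Nat.mod_eq_of_lt hj] at this
    exact hij this
  let P : ℕ → Fin 2 ↪ Fin r := fun i =>
    if hi : i + 1 < r then pair2 (hpt i (i + 1) (by omega) hi (by omega))
    else pair2 (hpt 0 1 (by omega) (by omega) (by omega))
  choose v f hv0 hfv hQ using fun i => h.exists_rank_one (P i)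
  have hfar : ∀ i j, i + 1 < r → j + 1 < r → (i + 1 < j ∨ j + 1 < i) → f i (v j) = 0 := by
    intro i j hi hj hij
    have hd : Dis (P i) (P j) := by
      simp only [P, dif_pos hi, dif_pos hj]
      intro s t e
      fin_cases s <;> fin_cases t <;>
        exact hpt _ _ (by omega) (by omega) (by omega) e
    have := h.Qp_orth hd (v j)
    rw [hQ, hQ, hfv, one_smul] at this
    exact (smul_eq_zero.1 this).resolve_right (hv0 i)
  have hadj : ∀ i, i + 2 < r → 4 * f i (v (i + 1)) * f (i + 1) (v i) = 1 := by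
    intro i hi
    have n1 : pt (i + 1) ≠ pt i := hpt _ _ (by omega) (by omega) (by omega)
    have n2 : pt (i + 1) ≠ pt (i + 2) := hpt _ _ (by omega) (by omega) (by omega)
    have n3 : pt i ≠ pt (i + 2) := hpt _ _ (by omega) (by omega) (by omega)
    refine h.adjacent_coeff n1 n2 n3 (fun x => ?_) (fun x => ?_) (hfv i) (hfv (i + 1))
    · rw [← hQ i x, ← h.Qp_flip (P i)]
      congr 2
      simp only [P, dif_pos (show i + 1 < r by omega)]
      exact emb2_ext rfl rfl
    · rw [← hQ (i + 1) x]
      congr 2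
      simp only [P, dif_pos (show i + 1 + 1 < r by omega)]
  -- independence of a chain
  have chain : ∀ N : ℕ, N + 1 ≤ r → ((N + 1 : ℕ) : k) ≠ 0 → N ≤ finrank k V := by
    intro N hN hN0
    by_contra hlt
    obtain ⟨c, hc, i₀, hi₀⟩ := Fintype.not_linearIndependent_iff.1
      (fun hli : LinearIndependent k (fun i : Fin N => v i) => by
        have := hli.fintype_card_le_finrank
        rw [Fintype.card_fin] at this
        exact hlt this)
    let C : ℕ → k := fun j => if hj : j < N then c ⟨j, hj⟩ else 0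
    have heq : ∀ j, j < N → (if j = 0 then 0 else f j (v (j - 1)) * C (j - 1)) + C j + f j (v (j + 1)) * C (j + 1) = 0 := by
      intro j hj
      have h0 := congrArg (f j) hc
      rw [map_sum, map_zero] at h0
      simp only [map_smul, smul_eq_mul] at h0
      have hval : ∀ i : Fin N, c i * f j (v i) = (if j = (i : ℕ) + 1 then f j (v (j - 1)) * C (j - 1) else 0) +
          (if (i : ℕ) = j then C j else 0) + (if (i : ℕ) = j + 1 then f j (v (j + 1)) * C (j + 1) else 0) := by
        intro i
        have hci : C i = c i := by simp [C, i.2]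
        rcases lt_trichotomy (i : ℕ) j with hlt' | heq' | hgt
        · by_cases h1 : j = (i : ℕ) + 1
          · subst h1
            rw [if_pos rfl, if_neg (by omega), if_neg (by omega), Nat.add_sub_cancel, hci]; ring
          · rw [if_neg h1, if_neg (by omega), if_neg (by omega),
              hfar j i (by omega) (by omega) (Or.inr (by omega))]; ring
        · rw [if_neg (by omega), if_pos heq', if_neg (by omega), ← heq', hci, heq', hfv]; ring
        · by_cases h1 : (i : ℕ) = j + 1
          · rw [if_neg (by omega), if_neg (by omega), if_pos h1, ← h1, hci]; ring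
          · rw [if_neg (by omega), if_neg (by omega), if_neg h1,
              hfar j i (by omega) (by omega) (Or.inl (by omega))]; ring
      rw [Finset.sum_congr rfl fun i _ => hval i, Finset.sum_add_distrib, Finset.sum_add_distrib] at h0
      convert h0 using 2
      · congr 1
        · by_cases hj0 : j = 0
          · subst hj0
            rw [if_pos rfl, Finset.sum_eq_zero fun i _ => if_neg (by omega)]
          · rw [if_neg hj0, Finset.sum_eq_single (⟨j - 1, by omega⟩ : Fin N) (fun b _ hb => if_neg (fun e => hb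
              (Fin.ext (by simp only; omega)))) (by simp), if_pos (by simp only; omega)]
        · rw [Finset.sum_eq_single (⟨j, hj⟩ : Fin N) (fun b _ hb => if_neg (fun e => hb (Fin.ext e))) (by simp),
            if_pos rfl]
      · by_cases hj1 : j + 1 < N
        · rw [Finset.sum_eq_single (⟨j + 1, hj1⟩ : Fin N) (fun b _ hb => if_neg (fun e => hb (Fin.ext e))) (by simp),
            if_pos rfl]
        · rw [Finset.sum_eq_zero fun i _ => if_neg (by omega)]
          simp [C, hj1]
    let D : ℕ → k := fun j => C j * ∏ i ∈ Finset.range j, (-2 * f i (v (i + 1)))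
    have hD : ∀ j, j ≤ N → D j = ((j + 1 : ℕ) : k) * D 0 := by
      intro j
      induction j using Nat.strong_induction_on with
      | _ j ih =>
        intro hj
        match j with
        | 0 => simp
        | 1 =>
          have e := heq 0 (by omega)
          simp only [if_pos] at e
          simp only [D, Finset.prod_range_succ, Finset.prod_range_zero, one_mul, mul_one]
          push_cast
          linear_combination (-2 : k) * e
        | j + 2 =>
          have e := heq (j + 1) (by omega)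
          rw [if_neg (by omega), Nat.add_sub_cancel] at e
          have i1 := ih (j + 1) (by omega) (by omega)
          have i0 := ih j (by omega) (by omega)
          have ha := hadj j (by omega)
          simp only [D, Finset.prod_range_succ, Finset.prod_range_zero, mul_one] at i1 i0 ⊢
          push_cast at i1 i0 ⊢
          linear_combination ((-2 : k) * (∏ i ∈ Finset.range j, (-2 * f i (v (i + 1)))) * (-2 * f j (v (j + 1)))) * e
            - (C j * ∏ i ∈ Finset.range j, (-2 * f i (v (i + 1)))) * ha + (2 : k) * i1 - i0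
    have hD0 : D 0 = 0 := by
      have := hD N le_rfl
      rw [show D N = 0 by simp [D, C], eq_comm, mul_eq_zero] at this
      exact this.resolve_left hN0
    apply hi₀
    have hDi := hD i₀ (by omega)
    rw [hD0, mul_zero] at hDi
    have hp : ∏ i ∈ Finset.range (i₀ : ℕ), (-2 * f i (v (i + 1))) ≠ 0 := Finset.prod_ne_zero_iff.2 fun i hi => by
      rw [Finset.mem_range] at hi
      have ha := hadj i (by omega)
      exact mul_ne_zero (neg_ne_zero.2 h.char) fun e => by rw [e] at ha; simp at ha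
    simpa [C, i₀.2] using (mul_eq_zero.1 hDi).resolve_right hp
  by_cases hr0 : (r : k) = 0
  · have := h.dim' hr0
    have := chain (r - 2) (by omega) (fun e => one_ne_zero (α := k) (by
      have e' : ((r - 2 + 1 : ℕ) : k) + 1 = (r : k) := by rw [← Nat.cast_succ]; congr 1; omega
      rw [e, hr0, zero_add] at e'
      exact e'))
    omega
  · have := chain (r - 1) (by omega) (by rwa [show r - 1 + 1 = r by omega])
    omega

end SmallOdd

end CfsgLib.AltLinear
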