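import Mathlib

/-!
Embeddings of alternating groups into one another, as needed for the lower bounds on the degrees of
their projective representations.
-/

set_option autoImplicit false

namespace CfsgLib.AltLinear

open Equiv

/-- The alternating group on `m` letters, as a type. -/
abbrev Alt (m : ℕ) : Type := ↥(alternatingGroup (Fin m))

variable {m r l : ℕ}

theorem viaEmbedding_mem_alternating (e : Fin m ↪ Fin r) (x : Alt m) :
    Perm.viaEmbeddingHom e x.1 ∈ alternatingGroup (Fin r) := by
  classical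
  rw [Perm.mem_alternatingGroup, Perm.viaEmbeddingHom_apply, Perm.viaEmbedding, Perm.sign_extendDomain]
  exact Perm.mem_alternatingGroup.1 x.2

/-- The map of alternating groups induced by an injection of letters. -/
noncomputable def em (e : Fin m ↪ Fin r) : Alt m →* Alt r :=
  ((Perm.viaEmbeddingHom e).comp (alternatingGroup (Fin m)).subtype).codRestrict _
    (viaEmbedding_mem_alternating e)

@[simp] theorem em_apply (e : Fin m ↪ Fin r) (x : Alt m) (i : Fin m) :
    (em e x).1 (e i) = e (x.1 i) := Perm.viaEmbedding_apply x.1 e i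

theorem em_apply_notMem (e : Fin m ↪ Fin r) (x : Alt m) {z : Fin r} (hz : z ∉ Set.range e) :
    (em e x).1 z = z := Perm.viaEmbedding_apply_of_notMem x.1 e z hz

theorem em_injective (e : Fin m ↪ Fin r) : Function.Injective (em e) := fun x y h =>
  Subtype.ext (Perm.viaEmbeddingHom_injective e (congrArg Subtype.val h))

theorem alt_ext {x y : Alt r} (h : ∀ z, x.1 z = y.1 z) : x = y := Subtype.ext (Equiv.ext h)

theorem em_trans (e : Fin m ↪ Fin r) (d : Fin l ↪ Fin m) (x : Alt l) :
    em e (em d x) = em (d.trans e) x := by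
  refine alt_ext fun z => ?_
  by_cases hz : z ∈ Set.range e
  · obtain ⟨y, rfl⟩ := hz
    rw [em_apply]
    by_cases hy : y ∈ Set.range d
    · obtain ⟨i, rfl⟩ := hy
      rw [em_apply]
      exact (em_apply (d.trans e) x i).symm
    · rw [em_apply_notMem d x hy, em_apply_notMem]
      rintro ⟨i, hi⟩
      exact hy ⟨i, e.injective hi⟩
  · rw [em_apply_notMem e _ hz, em_apply_notMem]
    rintro ⟨i, hi⟩
    exact hz ⟨d i, hi⟩

/-- Images under injections with the same effect are equal. -/
theorem em_conj (g : Alt r) (e e' : Fin m ↪ Fin r) (x : Alt m) (h : ∀ i, g.1 (e i) = e' i) :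
    g * em e x * g⁻¹ = em e' x := by
  refine alt_ext fun z => ?_
  show g.1 ((em e x).1 (g.1⁻¹ z)) = _
  by_cases hz : z ∈ Set.range e'
  · obtain ⟨i, rfl⟩ := hz
    rw [em_apply, show g.1⁻¹ (e' i) = e i by rw [← h i]; simp, em_apply, h]
  · rw [em_apply_notMem e' x hz, em_apply_notMem]
    · simp
    · rintro ⟨i, hi⟩
      exact hz ⟨i, by rw [← h i, hi]; simp⟩

theorem em_perm (e : Fin m ↪ Fin r) (π : Perm (Fin m)) (x y : Alt m) (h : y.1 = π * x.1 * π⁻¹) :
    em (π.toEmbedding.trans e) x = em e y := by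
  refine alt_ext fun z => ?_
  by_cases hz : z ∈ Set.range e
  · obtain ⟨i, rfl⟩ := hz
    rw [em_apply]
    have := em_apply (π.toEmbedding.trans e) x (π⁻¹ i)
    simp only [Function.Embedding.trans_apply, Equiv.coe_toEmbedding] at this
    rw [h]
    simpa using this
  · rw [em_apply_notMem e y hz, em_apply_notMem]
    rintro ⟨i, hi⟩
    exact hz ⟨π i, hi⟩

theorem em_comm (e : Fin m ↪ Fin r) (d : Fin l ↪ Fin r) (x : Alt m) (y : Alt l)
    (h : ∀ i j, e i ≠ d j) : em e x * em d y = em d y * em e x := by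
  refine alt_ext fun z => ?_
  show (em e x).1 ((em d y).1 z) = (em d y).1 ((em e x).1 z)
  by_cases hz : z ∈ Set.range e
  · obtain ⟨i, rfl⟩ := hz
    have h1 : ∀ i, e i ∉ Set.range d := fun i ⟨j, hj⟩ => h i j hj.symm
    rw [em_apply_notMem d y (h1 i), em_apply, em_apply_notMem d y (h1 _)]
  · rw [em_apply_notMem e x hz, em_apply_notMem]
    rintro ⟨i, hi⟩
    by_cases hz' : z ∈ Set.range d
    · obtain ⟨j, rfl⟩ := hz'
      rw [em_apply] at hi
      exact h i _ hi
    · rw [em_apply_notMem d y hz'] at hi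
      exact hz ⟨i, hi⟩

/-- An even permutation carrying one injection to another, two letters to spare. -/
theorem exists_even_map (e e' : Fin l ↪ Fin r) (h : l + 2 ≤ r) :
    ∃ g : Alt r, ∀ i, g.1 (e i) = e' i := by
  classical
  obtain ⟨σ, hσ⟩ := Equiv.Perm.exists_extending_pair e e' e.injective e'.injective
  rcases Int.units_eq_one_or (Perm.sign σ) with hs | hs
  · exact ⟨⟨σ, Perm.mem_alternatingGroup.2 hs⟩, hσ⟩
  · have hc : 1 < (Finset.univ \ Finset.univ.map e).card := by
      rw [Finset.card_sdiff]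
      simp
      omega
    obtain ⟨a, ha, b, hb, hab⟩ := Finset.one_lt_card.1 hc
    simp only [Finset.mem_sdiff, Finset.mem_univ, true_and, Finset.mem_map, not_exists] at ha hb
    refine ⟨⟨σ * swap a b, Perm.mem_alternatingGroup.2 ?_⟩, fun i => ?_⟩
    · rw [map_mul, hs, Perm.sign_swap hab]; decide
    · show σ (swap a b (e i)) = e' i
      rw [swap_apply_of_ne_of_ne (ha i) (hb i), hσ]

/-- Prescribed images are conjugate. -/
theorem exists_em_conj (e e' : Fin m ↪ Fin r) (h : m + 2 ≤ r) :
    ∃ g : Alt r, ∀ x : Alt m, g * em e x * g⁻¹ = em e' x := by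
  obtain ⟨g, hg⟩ := exists_even_map e e' h
  exact ⟨g, fun x => em_conj g e e' x hg⟩

/-- The injection with the given values. -/
def mkEmb {r : ℕ} (v : Fin l → Fin r) (h : Function.Injective v) : Fin l ↪ Fin r := ⟨v, h⟩

@[simp] theorem mkEmb_apply {r : ℕ} (v : Fin l → Fin r) (h : Function.Injective v) (i : Fin l) :
    mkEmb v h i = v i := rfl

/-- A three-cycle on three letters. -/
def c3 : Alt 3 := ⟨finRotate 3, Equiv.Perm.mem_alternatingGroup.2 (by decide)⟩

/-- A five-cycle on five letters. -/
def c5 : Alt 5 := ⟨finRotate 5, Equiv.Perm.mem_alternatingGroup.2 (by decide)⟩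

/-- A homomorphism of a simple alternating group killing one non-trivial element is trivial. -/
theorem eq_one_of_map_eq_one {M : Type*} [Monoid M] (hm : 5 ≤ m) (f : Alt m →* M) {x : Alt m}
    (hx : x ≠ 1) (hfx : f x = 1) (y : Alt m) : f y = 1 := by
  haveI : IsSimpleGroup (Alt m) := alternatingGroup.isSimpleGroup (by simpa using hm)
  rcases (MonoidHom.normal_ker f).eq_bot_or_eq_top with h | h
  · exact absurd ((Subgroup.eq_bot_iff_forall _).1 h x hfx) hx
  · exact (show y ∈ f.ker from h ▸ Subgroup.mem_top y)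

end CfsgLib.AltLinear
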