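import Cfsg.Agent.AltLinear.SpinRep

/-!
Spin modules of alternating groups of degree at least nine are large.
-/

set_option autoImplicit false
set_option linter.unusedSectionVars false

namespace CfsgLib.AltLinear

open Module Equiv

universe u v w

variable {k : Type u} [Field k] [IsAlgClosed k] {Γ : Type w} [Group Γ] {m : ℕ} {W : Type v}
  [AddCommGroup W] [Module k W] [FiniteDimensional k W] {q : Γ →* Alt m} {π : Representation k Γ W}

/-- Tripling modulo seven. -/
def trp : Perm (Fin 7) := ⟨fun x => 3 * x, fun x => 5 * x, by decide, by decide⟩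

namespace Spin

theorem exists_conj_lift (h : Spin q π) {o : ℕ} (ho : Odd o) {X Y : Γ} (hX : X ^ o = 1) (hY : Y ^ o = 1)
    {g : Alt m} (hg : g * q X * g⁻¹ = q Y) : ∃ G, q G = g ∧ G * X * G⁻¹ = Y := by
  obtain ⟨G, hG⟩ := h.surj g
  exact ⟨G, hG, h.conj_lift ho hX hY (by rw [hG, hg])⟩

theorem sub_comm (h : Spin q π) {o l l' : ℕ} (ho : Odd o) {X : Γ} (hX : X ^ o = 1) (e : Fin l' ↪ Fin m)
    {x : Alt l'} (hqX : q X = em e x) (d : Fin l ↪ Fin m) (hd : ∀ i j, d i ≠ e j) (g : ↥(sub q d)) :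
    g.1 * X = X * g.1 :=
  h.comm_lift ho hX (by rw [hqX, ← em_subHom q d g]; exact em_comm d e _ x hd)

/-- A three-cycle doubles the bound for the complementary alternating group. -/
theorem dbl (h : Spin q π) (h2 : (2 : k) ≠ 0) [Nontrivial W] (hm : 5 ≤ m) (D : ℕ)
    (hD : ∀ (d : Fin (m - 3) ↪ Fin m) (U : Submodule k W) (hU : ∀ g : ↥(sub q d), ∀ x ∈ U, π g x ∈ U),
      U ≠ ⊥ → D ≤ finrank k U) : 2 * D ≤ finrank k W := by
  let e : Fin 3 ↪ Fin m := Fin.castLEEmb (by omega)
  obtain ⟨X, hX, hX3⟩ := h.exists_lift (o := 3) (by decide) (show A e ^ 3 = 1 by rw [← map_pow, c3_pow, map_one])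
  obtain ⟨g, hg⟩ := exists_inverting hm e
  obtain ⟨G, -, hG⟩ := h.exists_conj_lift (o := 3) (by decide) hX3 (show X⁻¹ ^ 3 = 1 by rw [inv_pow, hX3, inv_one])
    (g := g) (by rw [map_inv, hX]; exact hg)
  obtain ⟨μ, hμ⟩ := Module.End.exists_eigenvalue (π X : Module.End k W)
  obtain ⟨d, hd, -⟩ := exists_complement e
  have hcomm : ∀ c : ↥(sub q d), ∀ x, π c (π X x) = π X (π c x) :=
    fun c x => rep_comm_apply π (h.sub_comm (by decide) hX3 e hX d hd c) x
  set N : Module.End k W := π X - μ • 1 with hN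
  have hNc : ∀ c : ↥(sub q d), ∀ x, π c (N x) = N (π c x) := fun c x => by
    simp [hN, hcomm]
  have hker : LinearMap.ker N ≠ ⊥ := by
    obtain ⟨x, hx⟩ := hμ.exists_hasEigenvector
    intro hb
    refine hx.2 ((Submodule.eq_bot_iff _).1 hb x ?_)
    simp [hN, hx.apply_eq_smul]
  have hran : LinearMap.range N ≠ ⊥ := by
    intro hb
    rw [LinearMap.range_eq_bot, hN, sub_eq_zero] at hb
    obtain ⟨x, hx⟩ := exists_ne (0 : W)
    have hμ3 : μ ^ 3 = 1 := by
      refine eigen_pow_eq_one (π X) (by rw [← map_pow, hX3, map_one]) hx ?_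
      rw [hb]; rfl
    have hinv : π X⁻¹ = μ • 1 := by
      rw [← hG, map_mul, map_mul, hb, mul_smul_comm, mul_one, smul_mul_assoc, ← map_mul, mul_inv_cancel, map_one]
    have hμμ : μ * μ = 1 := by
      have h1 : π X * π X⁻¹ = 1 := by rw [← map_mul, mul_inv_cancel, map_one]
      rw [hb, hinv] at h1
      have := DFunLike.congr_fun h1 x
      simp only [Module.End.mul_apply, LinearMap.smul_apply, Module.End.one_apply, smul_smul] at this
      by_contra hne
      exact hx ((smul_eq_zero.1 (show (μ * μ - 1) • x = 0 by rw [sub_smul, this, one_smul, sub_self])).resolve_left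
        (sub_ne_zero.2 hne))
    have hμ1 : μ = 1 := by linear_combination hμ3 - μ * hμμ
    exact (h.ne_one h2 hm (X := X) (by rw [hX]; exact em_ne_one e c3_ne_one)).1 (by rw [hb, hμ1, one_smul])
  have i1 := hD d _ (fun c x hx => by
    rw [LinearMap.mem_ker] at hx ⊢
    rw [← hNc, hx, map_zero]) hker
  have i2 := hD d _ (fun c x hx => by
    obtain ⟨y, rfl⟩ := hx
    exact ⟨π c y, (hNc c y).symm⟩) hran
  have := N.finrank_range_add_finrank_ker
  omega

/-- A cycle of prime length with all its non-trivial eigenvalues. -/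
theorem cycle_eigen (h : Spin q π) (h2 : (2 : k) ≠ 0) [Nontrivial W] (hm : 5 ≤ m) (o a b : ℕ) (hp : o.Prime)
    (ho : Odd o) (hok : (o : k) ≠ 0) (hab : a * b % o = 1 % o)
    (horb : ∀ j : Fin (o - 1), ∃ i : Fin o, b ^ i.val % o = (j.val + 1) % o)
    (l : ℕ) (hl : l + o = m) (x : Alt o) (hx : x ≠ 1) (hxo : x ^ o = 1) (π₀ : Perm (Fin o))
    (hπ₀ : (x ^ a).1 = π₀ * x.1 * π₀⁻¹) (hmo : o + 2 ≤ m) (D : ℕ)
    (hD : ∀ (d : Fin l ↪ Fin m) (U : Submodule k W) (hU : ∀ g : ↥(sub q d), ∀ y ∈ U, π g y ∈ U),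
      U ≠ ⊥ → D ≤ finrank k U) : (o - 1) * D ≤ finrank k W := by
  let e : Fin o ↪ Fin m := Fin.castLEEmb (by omega)
  obtain ⟨X, hX, hXo⟩ := h.exists_lift ho (show em e x ^ o = 1 by rw [← map_pow, hxo, map_one])
  have hTo : π X ^ o = 1 := by rw [← map_pow, hXo, map_one]
  obtain ⟨ζ, hζ1, hζo, v, hv, hve⟩ := exists_eigen_ne_one (π X) hok hTo
    (h.ne_one h2 hm (X := X) (by rw [hX]; exact em_ne_one e hx)).1
  haveI := Fact.mk hp
  have hprim : IsPrimitiveRoot ζ o := IsPrimitiveRoot.iff_orderOf.2 (orderOf_eq_prime hζo hζ1)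
  obtain ⟨g, hg⟩ := exists_em_conj e (π₀.toEmbedding.trans e) hmo
  obtain ⟨G, -, hG⟩ := h.exists_conj_lift ho hXo (show (X ^ a) ^ o = 1 by rw [← pow_mul, mul_comm, pow_mul, hXo, one_pow])
    (g := g) (by rw [map_pow, hX, hg, em_perm e π₀ x (x ^ a) hπ₀, map_pow])
  have step : ∀ (c : k) (y : W), π X y = c • y → π X (π G y) = c ^ b • π G y := fun c y hy => by
    refine eigen_apply_pow (π X) hTo hab ?_
    rw [← map_pow, ← hG, ← Module.End.mem_eigenspace_iff, mem_eigen_conj, Module.End.mem_eigenspace_iff]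
    exact hy
  have hiter : ∀ i : ℕ, ∃ y, y ≠ 0 ∧ π X y = ζ ^ (b ^ i) • y := by
    intro i
    induction i with
    | zero => exact ⟨v, hv, by simpa using hve⟩
    | succ i ih =>
      obtain ⟨y, hy, hye⟩ := ih
      exact ⟨π G y, fun h0 => hy (rep_injective π G (by simpa using h0)),
        by rw [step _ _ hye, ← pow_mul, ← pow_succ]⟩
  have hl' : m - o = l := by omega
  obtain ⟨d, hd, -⟩ := exists_complement e
  have hbig : ∀ j : Fin (o - 1), D ≤ finrank k (Module.End.eigenspace (π X) (ζ ^ (j.val + 1))) := by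
    intro j
    obtain ⟨i, hi⟩ := horb j
    obtain ⟨y, hy, hye⟩ := hiter i
    rw [pow_eq_pow_mod (b ^ i.val) hζo, hi, ← pow_eq_pow_mod _ hζo] at hye
    subst hl'
    exact hD d _ (fun c => eigen_invariant π (h.sub_comm ho hXo e hX d hd c) _)
      (fun hb => hy ((Submodule.eq_bot_iff _).1 hb y (Module.End.mem_eigenspace_iff.2 hye)))
  have hinj : Function.Injective fun j : Fin (o - 1) => ζ ^ (j.val + 1) := fun i j hij => Fin.ext (by
    have := hprim.pow_inj (show i.val + 1 < o by omega) (show j.val + 1 < o by omega) hij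
    omega)
  simpa using mul_le_finrank (π X) (fun j : Fin (o - 1) => ζ ^ (j.val + 1)) hinj D hbig

theorem two_le_sub (h : Spin q π) (h2 : (2 : k) ≠ 0) {l : ℕ} (hl : 4 ≤ l) (d : Fin l ↪ Fin m) (U : Submodule k W)
    (hU : ∀ g : ↥(sub q d), ∀ x ∈ U, π g x ∈ U) (hne : U ≠ ⊥) : 2 ≤ finrank k U := by
  haveI : Nontrivial U := Submodule.nontrivial_iff_ne_bot.2 hne
  exact (h.restrict d U hU).two_le h2 hl

/-- A five-cycle in four copies. -/
theorem eight_le (h : Spin q π) (h2 : (2 : k) ≠ 0) [Nontrivial W] (hm : 9 ≤ m) (h5 : (5 : k) ≠ 0) :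
    8 ≤ finrank k W :=
  h.cycle_eigen h2 (by omega) 5 2 3 Nat.prime_five (by decide) (by simpa using h5) (by norm_num) (by decide) (m - 5)
    (by omega) c5 c5_ne_one c5_pow CfsgLib.AltLinear.dbl (by decide) (by omega) 2
    (fun d U hU hne => h.two_le_sub h2 (by omega) d U hU hne)

/-- A seven-cycle in six copies. -/
theorem twelve_le (h : Spin q π) (h2 : (2 : k) ≠ 0) [Nontrivial W] (hm : 11 ≤ m) (h7 : (7 : k) ≠ 0) :
    12 ≤ finrank k W :=
  h.cycle_eigen h2 (by omega) 7 3 5 (by norm_num) (by decide) (by simpa using h7) (by norm_num) (by decide) (m - 7)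
    (by omega) ⟨finRotate 7, Perm.mem_alternatingGroup.2 (by decide)⟩
    (fun hh => absurd (congrArg Subtype.val hh) (by decide : finRotate 7 ≠ 1))
    (Subtype.ext (by show finRotate 7 ^ 7 = 1; decide)) trp (by decide) (by omega) 2
    (fun d U hU hne => h.two_le_sub h2 (by omega) d U hU hne)

/-- Degree six. -/
theorem four_le (h : Spin q π) (h2 : (2 : k) ≠ 0) (h3 : (3 : k) ≠ 0) [Nontrivial W] (hm : 6 ≤ m) :
    4 ≤ finrank k W := by
  classical
  let e : Fin 3 ↪ Fin m := (mkEmb ![0, 1, 2] (by decide) : Fin 3 ↪ Fin 6).trans (Fin.castLEEmb hm)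
  let f : Fin 3 ↪ Fin m := (mkEmb ![3, 4, 5] (by decide) : Fin 3 ↪ Fin 6).trans (Fin.castLEEmb hm)
  have hdis : ∀ i j, e i ≠ f j := fun i j hh =>
    (by decide : ∀ i j : Fin 3, (![0, 1, 2] : Fin 3 → Fin 6) i ≠ (![3, 4, 5] : Fin 3 → Fin 6) j) i j
      ((Fin.castLEEmb hm).injective hh)
  obtain ⟨X, hX, hX3⟩ := h.exists_lift (o := 3) (by decide) (show A e ^ 3 = 1 by rw [← map_pow, c3_pow, map_one])
  obtain ⟨Y, hY, hY3⟩ := h.exists_lift (o := 3) (by decide) (show A f ^ 3 = 1 by rw [← map_pow, c3_pow, map_one])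
  obtain ⟨g, hge, hgf⟩ := exists_quarter_turn hm e f hdis
  obtain ⟨G, hG⟩ := h.surj g
  have gX : G * X * G⁻¹ = Y := h.conj_lift (o := 3) (by decide) hX3 hY3 (by rw [hG, hX, hY, hge])
  have gY : G * Y * G⁻¹ = X⁻¹ := h.conj_lift (o := 3) (by decide) hY3 (by rw [inv_pow, hX3, inv_one])
    (by rw [map_inv, hG, hX, hY, hgf])
  have hXY : Y * X = X * Y := h.comm_lift (o := 3) (by decide) hX3 (by
    rw [hX, hY]; exact (em_comm e f c3 c3 hdis).symm)
  have hq3 : ((3 : ℕ) : k) ≠ 0 := three_ne_zero_iff.2 h3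
  obtain ⟨a, ha, ha3, v, hv, hva⟩ := exists_eigen_ne_one (π X) hq3 (by rw [← map_pow, hX3, map_one])
    (h.ne_one h2 (by omega) (X := X) (by rw [hX]; exact em_ne_one e c3_ne_one)).1
  have hU : ∀ x ∈ Module.End.eigenspace (π X) a, π Y x ∈ Module.End.eigenspace (π X) a :=
    eigen_invariant π hXY a
  obtain ⟨b, x, hxU, hx, hxb⟩ := exists_eigen_mem (π Y) (Module.End.eigenspace (π X) a) hU
    (fun hb => hv ((Submodule.eq_bot_iff _).1 hb v (Module.End.mem_eigenspace_iff.2 hva)))
  have hxa := Module.End.mem_eigenspace_iff.1 hxU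
  have hb3 : b ^ 3 = 1 := eigen_pow_eq_one (π Y) (by rw [← map_pow, hY3, map_one]) hx hxb
  have nz : ∀ {c : k}, c ^ 3 = 1 → c ≠ 0 := fun hc h0 => by simp [h0] at hc
  have key : ∀ (z : W) (a b : k), b ^ 3 = 1 → π X z = a • z → π Y z = b • z →
      π X (π G z) = b⁻¹ • π G z ∧ π Y (π G z) = a • π G z := by
    intro z a b hb h1 h2
    constructor
    · rw [← inv_pow_two hb]
      refine eigen_apply_pow (π X) (by rw [← map_pow, hX3, map_one]) (a := 2) (b := 2) (by norm_num) ?_
      rw [show (π X) ^ 2 = π X⁻¹ by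
        rw [← map_pow]; congr 1
        exact eq_inv_of_mul_eq_one_left (by rw [← pow_succ]; exact hX3), ← gY,
        ← Module.End.mem_eigenspace_iff, mem_eigen_conj, Module.End.mem_eigenspace_iff]
      exact h2
    · rw [← Module.End.mem_eigenspace_iff, ← gX, mem_eigen_conj, Module.End.mem_eigenspace_iff]
      exact h1
  obtain ⟨k1, l1⟩ := key x a b hb3 hxa hxb
  obtain ⟨k2, l2⟩ := key _ _ _ ha3 k1 l1
  obtain ⟨k3, l3⟩ := key _ _ _ (inv_cube hb3) k2 l2
  rw [inv_inv] at k3
  have hinj : ∀ n, Function.Injective fun z : W => (π G ^ n) z := fun n => by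
    rw [← map_pow]; exact rep_injective π (G ^ n)
  let w : Fin 4 → Bool → k := fun i c => if c then ![a, b⁻¹, a⁻¹, b] i else ![b, a, b⁻¹, a⁻¹] i
  have hwinj : Function.Injective w := by
    intro i j hij
    have e1 := congrFun hij true
    have e2 := congrFun hij false
    have na := ne_inv_of_cube ha ha3
    simp only [w, if_true, Bool.false_eq_true, if_false] at e1 e2
    fin_cases i <;> fin_cases j <;>
      simp only [Fin.isValue, Matrix.cons_val_zero, Matrix.cons_val_one, Matrix.cons_val, Fin.zero_eta,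
        Fin.mk_one, Fin.reduceFinMk, inv_inj] at e1 e2 <;>
      first
      | rfl
      | exact absurd e1 na
      | exact absurd e1.symm na
      | exact absurd e2 na
      | exact absurd e2.symm na
      | (exfalso; subst e2; first | exact na e1 | exact na e1.symm | exact na (inv_inj.1 e1))
      | (exfalso; subst e1; first | exact na e2 | exact na e2.symm | exact na (inv_inj.1 e2))
      | (exfalso; rw [e2] at e1; first | exact na e1 | exact na e1.symm)
      | (exfalso; rw [← e2] at e1; first | exact na e1 | exact na e1.symm)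
      | (exfalso; rw [e1] at e2; first | exact na e2 | exact na e2.symm)
      | (exfalso; rw [← e1] at e2; first | exact na e2 | exact na e2.symm)
  let vec : Fin 4 → W := ![x, π G x, π G (π G x), π G (π G (π G x))]
  have hvec : ∀ i, vec i ≠ 0 := fun i => by
    have h1 : ∀ z, z ≠ 0 → π G z ≠ 0 := fun z hz h0 => hz (rep_injective π G (by simpa using h0))
    fin_cases i
    exacts [hx, h1 _ hx, h1 _ (h1 _ hx), h1 _ (h1 _ (h1 _ hx))]
  have := card_weights_le (fun c : Bool => if c then π X else π Y)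
    (fun c c' => by
      have hh := (show Commute (π Y) (π X) from by rw [Commute, SemiconjBy, ← map_mul, ← map_mul, hXY])
      cases c <;> cases c' <;> simp <;> first | exact hh | exact hh.symm)
    (Finset.univ.image w) (fun χ hχ => by
      obtain ⟨i, -, rfl⟩ := Finset.mem_image.1 hχ
      refine ⟨vec i, hvec i, fun c => ?_⟩
      fin_cases i <;> cases c
      exacts [hxb, hxa, l1, k1, l2, k2, l3, k3])
  rw [Finset.card_image_of_injective _ hwinj] at this
  simpa using this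
where
  inv_pow_two {K : Type u} [Field K] {b : K} (hb : b ^ 3 = 1) : b ^ 2 = b⁻¹ :=
    eq_inv_of_mul_eq_one_left (by rw [← pow_succ]; exact hb)

/-- Degree ten. -/
theorem ten_le (h : Spin q π) (h2 : (2 : k) ≠ 0) (h5 : (5 : k) ≠ 0) [Nontrivial W] (hm : 10 ≤ m) :
    10 ≤ finrank k W := by
  classical
  let c : Fin 10 ↪ Fin m := Fin.castLEEmb hm
  let d₁ : Fin 5 ↪ Fin 10 := mkEmb ![0, 1, 2, 3, 4] (by decide)
  let d₂ : Fin 5 ↪ Fin 10 := mkEmb ![5, 6, 7, 8, 9] (by decide)
  let dd : Perm (Fin 5) := ⟨fun x => 2 * x, fun x => 3 * x, by decide, by decide⟩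
  let s : Alt 10 := ⟨(⟨![5, 6, 7, 8, 9, 0, 2, 4, 1, 3], ![5, 8, 6, 9, 7, 0, 1, 2, 3, 4], by decide, by decide⟩ :
    Perm (Fin 10)), Perm.mem_alternatingGroup.2 (by decide)⟩
  let t : Alt 10 := ⟨swap 1 4 * swap 2 3, Perm.mem_alternatingGroup.2 (by decide)⟩
  let e : Fin 5 ↪ Fin m := d₁.trans c
  let f : Fin 5 ↪ Fin m := d₂.trans c
  obtain ⟨a, ha, ha5⟩ := h.exists_lift (o := 5) (by decide) (show em e c5 ^ 5 = 1 by rw [← map_pow, c5_pow, map_one])
  obtain ⟨b, hb, hb5⟩ := h.exists_lift (o := 5) (by decide) (show em f c5 ^ 5 = 1 by rw [← map_pow, c5_pow, map_one])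
  obtain ⟨S, hS⟩ := h.surj (em c s)
  obtain ⟨T, hT⟩ := h.surj (em c t)
  have hs1 : S * a * S⁻¹ = b := h.conj_lift (o := 5) (by decide) ha5 hb5 (by
    rw [hS, ha, hb, ← em_trans, ← em_trans, ← map_inv, ← map_mul, ← map_mul, em_conj s d₁ d₂ c5 (by decide)])
  have hs2 : S * b * S⁻¹ = a ^ 2 := h.conj_lift (o := 5) (by decide) hb5
    (by rw [← pow_mul, mul_comm, pow_mul, ha5, one_pow]) (by
    rw [map_pow, hS, ha, hb, ← em_trans, ← em_trans, ← map_inv, ← map_mul, ← map_mul, ← map_pow,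
      em_conj s d₂ (dd.toEmbedding.trans d₁) c5 (by decide), em_perm d₁ dd c5 (c5 ^ 2) (by decide), map_pow, map_pow])
  have ht1 : T * a * T⁻¹ = a⁻¹ := h.conj_lift (o := 5) (by decide) ha5 (by rw [inv_pow, ha5, inv_one]) (by
    rw [map_inv, hT, ha, ← em_trans, ← map_inv, ← map_mul, ← map_mul,
      em_conj t d₁ ((swap (1 : Fin 5) 4 * swap 2 3).toEmbedding.trans d₁) c5 (by decide),
      em_perm d₁ (swap 1 4 * swap 2 3) c5 c5⁻¹ (by decide), map_inv, map_inv])
  have ht2 : T * b * T⁻¹ = b := h.conj_lift (o := 5) (by decide) hb5 hb5 (by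
    rw [hT, hb, ← em_trans, ← map_inv, ← map_mul, ← map_mul, em_conj t d₂ d₂ c5 (by decide)])
  have hdis : ∀ i j, f i ≠ e j := fun i j hh =>
    (by decide : ∀ i j : Fin 5, d₂ i ≠ d₁ j) i j (c.injective hh)
  have hab : a * b = b * a := (h.comm_lift (o := 5) (by decide) ha5 (by
    rw [ha, hb]; exact em_comm f e c5 c5 hdis)).symm
  have hqa : π a ^ 5 = 1 := by rw [← map_pow, ha5, map_one]
  have hqb : π b ^ 5 = 1 := by rw [← map_pow, hb5, map_one]
  obtain ⟨ζ, hζ1, hζ5, v, hv, hve⟩ := exists_eigen_ne_one (q := 5) (π a) (by simpa using h5) hqa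
    (h.ne_one h2 (by omega) (X := a) (by rw [ha]; exact em_ne_one e c5_ne_one)).1
  haveI := Fact.mk Nat.prime_five
  have hprim : IsPrimitiveRoot ζ 5 := IsPrimitiveRoot.iff_orderOf.2 (orderOf_eq_prime hζ5 hζ1)
  set U := Module.End.eigenspace (π a) ζ
  have hU : ∀ g : ↥(sub q f), ∀ x ∈ U, π g x ∈ U := fun g =>
    eigen_invariant π (h.sub_comm (o := 5) (by decide) ha5 e ha f hdis g) ζ
  haveI : Nontrivial U := Submodule.nontrivial_iff_ne_bot.2 fun hb' =>
    hv ((Submodule.eq_bot_iff _).1 hb' v (Module.End.mem_eigenspace_iff.2 hve))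
  have hres := h.restrict f U hU
  have hbm : b ∈ sub q f := by rw [sub, Subgroup.mem_comap, hb]; exact ⟨c5, rfl⟩
  have hqb' : subHom q f ⟨b, hbm⟩ ≠ 1 := by
    intro h1
    have := em_subHom q f ⟨b, hbm⟩
    rw [h1, map_one, hb] at this
    exact em_ne_one f c5_ne_one this.symm
  obtain ⟨η, hη, hη5, x, hx, hxe⟩ := exists_eigen_ne_one (q := 5)
    (restrictRep (π.comp (sub q f).subtype) U hU ⟨b, hbm⟩) (by simpa using h5)
    (by rw [← map_pow, show (⟨b, hbm⟩ : ↥(sub q f)) ^ 5 = 1 from Subtype.ext hb5, map_one])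
    (hres.ne_one h2 le_rfl hqb').1
  obtain ⟨j₀, hj₀, rfl⟩ := hprim.eq_pow_of_pow_eq_one hη5
  exact ten_le_of_weights π hab hqa hqb hs1 hs2 ht1 ht2 hprim (i₀ := 1) (j₀ := ⟨j₀, hj₀⟩) (by decide)
    (fun h0 => hη (by rw [show j₀ = 0 from congrArg Fin.val h0, pow_zero]))
    (x := x.1) (fun h0 => hx (Subtype.ext h0))
    (by simpa using Module.End.mem_eigenspace_iff.1 x.2) (congrArg Subtype.val hxe)

/-- Spin modules in degree at least nine. -/
theorem bound : ∀ (m : ℕ), 9 ≤ m → ∀ {Γ : Type w} [Group Γ] {W : Type v} [AddCommGroup W] [Module k W]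
    [FiniteDimensional k W] [Nontrivial W] {q : Γ →* Alt m} {π : Representation k Γ W}, Spin q π →
    (2 : k) ≠ 0 → m - 2 ≤ finrank k W ∧ ((m : k) ≠ 0 → m - 1 ≤ finrank k W) := by
  intro m
  induction m using Nat.strong_induction_on with
  | _ m ih =>
    intro hm Γ _ W _ _ _ _ q π h h2
    suffices hmain : m - 1 ≤ finrank k W ∨ ((m : k) = 0 ∧ m - 2 ≤ finrank k W) by
      rcases hmain with h1 | ⟨h0, h1⟩
      · exact ⟨by omega, fun _ => h1⟩
      · exact ⟨h1, fun hne => absurd h0 hne⟩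
    by_cases h12 : 12 ≤ m
    · left
      have := h.dbl h2 (by omega) (m - 5) fun d U hU hne => by
        haveI : Nontrivial U := Submodule.nontrivial_iff_ne_bot.2 hne
        have := (ih (m - 3) (by omega) (by omega) (h.restrict d U hU) h2).1
        omega
      omega
    by_cases h5 : (5 : k) = 0
    · have h3 : (3 : k) ≠ 0 := fun h3 => one_ne_zero (α := k) (by linear_combination (2 : k) * h3 - h5)
      have h8 : 8 ≤ finrank k W := by
        have := h.dbl h2 (by omega) 4 fun d U hU hne => by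
          haveI : Nontrivial U := Submodule.nontrivial_iff_ne_bot.2 hne
          exact (h.restrict d U hU).four_le h2 h3 (by omega)
        omega
      interval_cases m
      · exact Or.inl h8
      · refine Or.inr ⟨?_, h8⟩
        have : ((10 : ℕ) : k) = 5 * 2 := by norm_num
        rw [this, h5, zero_mul]
      · left
        have := h.twelve_le h2 (by omega) fun h7 => by
          exact h2 (by linear_combination h7 - h5)
        omega
    · left
      by_cases hm9 : m = 9
      · have := h.eight_le h2 hm h5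
        omega
      · have := h.ten_le h2 h5 (by omega)
        omega

end Spin

end CfsgLib.AltLinear
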