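import Cfsg.Agent.AltLinear.Eigen

/-!
Counting weights of one or two operators moved by automorphisms.
-/

set_option autoImplicit false
set_option linter.unusedSectionVars false

namespace CfsgLib.AltLinear

open Module Equiv Polynomial

variable {k V : Type*} [Field k] [AddCommGroup V] [Module k V] [FiniteDimensional k V]

/-- Eigenspaces for distinct eigenvalues, each of dimension at least `d`. -/
theorem mul_le_finrank {ι : Type*} [Fintype ι] (T : Module.End k V) (ζ : ι → k) (hζ : Function.Injective ζ)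
    (d : ℕ) (h : ∀ i, d ≤ finrank k (Module.End.eigenspace T (ζ i))) :
    Fintype.card ι * d ≤ finrank k V := by
  classical
  have key : ∀ i j, ∀ x ∈ Module.End.eigenspace T (ζ i),
      aeval T (∏ l ∈ Finset.univ.erase j, (X - C (ζ l))) x =
        (∏ l ∈ Finset.univ.erase j, (ζ i - ζ l)) • x := by
    intro i j x hx
    by_cases hx0 : x = 0
    · simp [hx0]
    rw [Module.End.aeval_apply_of_hasEigenvector ⟨hx, hx0⟩]
    simp [eval_prod]
  have := sum_finrank_le (fun i => Module.End.eigenspace T (ζ i))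
    (fun j => aeval T (∏ l ∈ Finset.univ.erase j, (X - C (ζ l)))) (fun i j hij x hx => by
      rw [key i j x hx, Finset.prod_eq_zero (Finset.mem_erase.2 ⟨hij, Finset.mem_univ i⟩) (sub_self _), zero_smul])
    (fun i x hx h0 => by
      rw [key i i x hx] at h0
      exact (smul_eq_zero.1 h0).resolve_left (Finset.prod_ne_zero_iff.2 fun l hl =>
        sub_ne_zero.2 fun e => Finset.ne_of_mem_erase hl (hζ e).symm))
  refine le_trans (le_of_eq ?_) (le_trans (Finset.sum_le_sum fun i _ => h i) this)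
  simp

theorem eigen_apply_pow (T : Module.End k V) {n : ℕ} (h : T ^ n = 1) {a b : ℕ} (hab : a * b % n = 1 % n)
    {μ : k} {x : V} (hx : (T ^ a) x = μ • x) : T x = μ ^ b • x := by
  have := pow_apply_eigen (T ^ a) hx b
  rwa [← pow_mul, pow_eq_pow_mod (a * b) h, hab, ← pow_eq_pow_mod 1 h, pow_one] at this

/-- One step in the orbit of a pair of exponents modulo five. -/
def pairStep (F : Finset (Fin 5 × Fin 5)) : Finset (Fin 5 × Fin 5) :=
  F ∪ F.image (fun z => (3 * z.2, z.1)) ∪ F.image (fun z => (4 * z.1, z.2))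

/-- Two commuting operators of order five moved as by two five-cycles. -/
theorem ten_le_of_weights {G : Type*} [Group G] (σ : Representation k G V) {a b s t : G}
    (hab : a * b = b * a) (ha : σ a ^ 5 = 1) (hb : σ b ^ 5 = 1)
    (hs1 : s * a * s⁻¹ = b) (hs2 : s * b * s⁻¹ = a ^ 2) (ht1 : t * a * t⁻¹ = a⁻¹) (ht2 : t * b * t⁻¹ = b)
    {ζ : k} (hζ : IsPrimitiveRoot ζ 5) {i₀ j₀ : Fin 5} (hi₀ : i₀ ≠ 0) (hj₀ : j₀ ≠ 0) {x : V} (hx : x ≠ 0)
    (hxa : σ a x = ζ ^ i₀.val • x) (hxb : σ b x = ζ ^ j₀.val • x) : 10 ≤ finrank k V := by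
  classical
  have hc : ζ ^ 5 = 1 := hζ.pow_eq_one
  let P : Fin 5 × Fin 5 → Prop := fun z => ∃ v : V, v ≠ 0 ∧ σ a v = ζ ^ z.1.val • v ∧ σ b v = ζ ^ z.2.val • v
  have hval : ∀ (c : Fin 5) (z : Fin 5), ζ ^ (c * z : Fin 5).val = (ζ ^ z.val) ^ c.val := fun c z => by
    rw [← pow_mul, Fin.val_mul, ← pow_eq_pow_mod _ hc, mul_comm]
  have hPs : ∀ z, P z → P (3 * z.2, z.1) := by
    rintro z ⟨v, hv, h1, h2⟩
    refine ⟨σ s v, fun h => hv (rep_injective σ _ (by simpa using h)), ?_, ?_⟩
    · rw [hval]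
      refine eigen_apply_pow (σ a) ha (a := 2) (b := 3) (by norm_num) ?_
      rw [← Module.End.mem_eigenspace_iff, ← map_pow, ← hs2, mem_eigen_conj, Module.End.mem_eigenspace_iff]
      exact h2
    · rw [← Module.End.mem_eigenspace_iff, ← hs1, mem_eigen_conj, Module.End.mem_eigenspace_iff]
      exact h1
  have hPt : ∀ z, P z → P (4 * z.1, z.2) := by
    rintro z ⟨v, hv, h1, h2⟩
    refine ⟨σ t v, fun h => hv (rep_injective σ _ (by simpa using h)), ?_, ?_⟩
    · rw [hval]
      refine eigen_apply_pow (σ a) ha (a := 4) (b := 4) (by norm_num) ?_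
      have hinv : σ a ^ 4 = σ a⁻¹ := by
        rw [← mul_one (σ a ^ 4), ← map_one σ, ← mul_inv_cancel a, map_mul, ← mul_assoc, ← pow_succ, ha, one_mul]
      rw [hinv, ← Module.End.mem_eigenspace_iff, ← ht1, mem_eigen_conj, Module.End.mem_eigenspace_iff]
      exact h1
    · rw [← Module.End.mem_eigenspace_iff, ← ht2, mem_eigen_conj, Module.End.mem_eigenspace_iff]
      exact h2
  have hiter : ∀ n, ∀ z ∈ pairStep^[n] {(i₀, j₀)}, P z := by
    intro n
    induction n with
    | zero => intro z hz; simp at hz; exact hz ▸ ⟨x, hx, hxa, hxb⟩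
    | succ n ih =>
      intro z hz
      rw [Function.iterate_succ', Function.comp_apply, pairStep, Finset.mem_union, Finset.mem_union,
        Finset.mem_image, Finset.mem_image] at hz
      rcases hz with (hz | ⟨y, hy, rfl⟩) | ⟨y, hy, rfl⟩
      exacts [ih z hz, hPs y (ih y hy), hPt y (ih y hy)]
  have hcard : 10 ≤ (pairStep^[8] {(i₀, j₀)}).card :=
    (by decide +kernel : ∀ a b : Fin 5, a ≠ 0 → b ≠ 0 → 10 ≤ (pairStep^[8] {(a, b)}).card) i₀ j₀ hi₀ hj₀
  have hle := card_weights_le (fun c : Bool => if c then σ a else σ b)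
    (fun c c' => by
      have h := (show Commute (σ a) (σ b) from by rw [Commute, SemiconjBy, ← map_mul, ← map_mul, hab])
      cases c <;> cases c' <;> simp <;> first | exact h | exact h.symm)
    ((pairStep^[8] {(i₀, j₀)}).image fun z => fun c : Bool =>
      if c then ζ ^ z.1.val else ζ ^ z.2.val) (fun χ hχ => by
      obtain ⟨z, hz, rfl⟩ := Finset.mem_image.1 hχ
      obtain ⟨v, hv, h1, h2⟩ := hiter 8 z hz
      exact ⟨v, hv, fun c => by cases c <;> simp [h1, h2]⟩)
  rw [Finset.card_image_of_injective _ fun z z' h => Prod.ext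
    (Fin.ext (hζ.pow_inj z.1.isLt z'.1.isLt (by simpa using congrFun h true)))
    (Fin.ext (hζ.pow_inj z.2.isLt z'.2.isLt (by simpa using congrFun h false)))] at hle
  omega

end CfsgLib.AltLinear
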