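import Cfsg.Agent.AltLinear.Klein
import Cfsg.Agent.AltLinear.Weights

/-!
Spin modules: representations of double covers of alternating groups in which the lifts of a Klein
four-group anticommute.
-/

set_option autoImplicit false
set_option linter.unusedSectionVars false

namespace CfsgLib.AltLinear

open Module Equiv

universe u v w

variable {k : Type u} [Field k]

/-- A double cover of an alternating group, and a module in which Klein lifts anticommute. -/
structure Spin {Γ : Type w} [Group Γ] {m : ℕ} {W : Type v} [AddCommGroup W] [Module k W]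
    (q : Γ →* Alt m) (π : Representation k Γ W) : Prop where
  surj : Function.Surjective q
  ker : ∀ z, q z = 1 → z * z = 1 ∧ (π z = 1 ∨ π z = -1) ∧ ∀ g, g * z = z * g
  anti : ∀ (e : Fin 4 ↪ Fin m) (u v : Γ), q u = em e t4 → q v = em e u4 → π (u * v) = -π (v * u)

variable {Γ : Type w} [Group Γ] {m : ℕ} {W : Type v} [AddCommGroup W] [Module k W]
  {q : Γ →* Alt m} {π : Representation k Γ W}

namespace Spin

/-- The lift of odd order. -/
theorem exists_lift (h : Spin q π) {x : Alt m} {o : ℕ} (ho : Odd o) (hx : x ^ o = 1) :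
    ∃ X, q X = x ∧ X ^ o = 1 := by
  obtain ⟨X, hX⟩ := h.surj x
  obtain ⟨hz, -, hc⟩ := h.ker (X ^ o) (by rw [map_pow, hX, hx])
  refine ⟨X * X ^ o, by rw [map_mul, map_pow, hX, hx, mul_one], ?_⟩
  obtain ⟨i, hi⟩ := ho
  have hzo : (X ^ o) ^ o = X ^ o := by
    generalize X ^ o = z at hz ⊢
    rw [hi, pow_succ, pow_mul, sq, hz, one_pow, one_mul]
  rw [(show Commute X (X ^ o) from hc X).mul_pow, hzo, hz]

theorem lift_unique (h : Spin q π) {o : ℕ} (ho : Odd o) {X X' : Γ} (hq : q X = q X') (hX : X ^ o = 1)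
    (hX' : X' ^ o = 1) : X = X' := by
  obtain ⟨hz, -, hc⟩ := h.ker (X * X'⁻¹) (by rw [map_mul, map_inv, hq, mul_inv_cancel])
  set z := X * X'⁻¹
  have e : X = z * X' := by simp [z]
  have hzo : z ^ o = z := by
    obtain ⟨i, hi⟩ := ho
    rw [hi, pow_succ, pow_mul, sq, hz, one_pow, one_mul]
  have : z = 1 := by
    have h1 : (z * X') ^ o = z ^ o * X' ^ o := (show Commute z X' from (hc X').symm).mul_pow o
    rw [← e, hX, hX', mul_one, hzo] at h1
    exact h1.symm
  rw [e, this, one_mul]

/-- Conjugation of lifts. -/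
theorem conj_lift (h : Spin q π) {o : ℕ} (ho : Odd o) {X Y g : Γ} (hX : X ^ o = 1) (hY : Y ^ o = 1)
    (hq : q g * q X * (q g)⁻¹ = q Y) : g * X * g⁻¹ = Y :=
  h.lift_unique ho (by rw [map_mul, map_mul, map_inv, hq]) (by rw [conj_pow, hX, mul_one, mul_inv_cancel]) hY

theorem comm_lift (h : Spin q π) {o : ℕ} (ho : Odd o) {X g : Γ} (hX : X ^ o = 1)
    (hq : q g * q X = q X * q g) : g * X = X * g := by
  have := h.conj_lift ho hX hX (g := g) (by rw [hq, mul_inv_cancel_right])
  exact mul_inv_eq_iff_eq_mul.1 this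

/-- The preimage of a smaller alternating group. -/
noncomputable def sub {l : ℕ} (q : Γ →* Alt m) (d : Fin l ↪ Fin m) : Subgroup Γ := (em d).range.comap q

/-- The map of the preimage onto the smaller alternating group. -/
noncomputable def subHom {l : ℕ} (q : Γ →* Alt m) (d : Fin l ↪ Fin m) : ↥(sub q d) →* Alt l :=
  (MonoidHom.ofInjective (em_injective d)).symm.toMonoidHom.comp
    ((q.comp (sub q d).subtype).codRestrict (em d).range fun g => g.2)

theorem em_subHom {l : ℕ} (q : Γ →* Alt m) (d : Fin l ↪ Fin m) (g : ↥(sub q d)) :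
    em d (subHom q d g) = q g := by
  have := (MonoidHom.ofInjective (em_injective d)).apply_symm_apply ⟨q g, g.2⟩
  exact congrArg Subtype.val this

theorem restrict (h : Spin q π) {l : ℕ} (d : Fin l ↪ Fin m) (U : Submodule k W)
    (hU : ∀ g : ↥(sub q d), ∀ x ∈ U, π g x ∈ U) :
    Spin (subHom q d) (restrictRep (π.comp (sub q d).subtype) U hU) where
  surj x := by
    obtain ⟨g, hg⟩ := h.surj (em d x)
    refine ⟨⟨g, by rw [sub, Subgroup.mem_comap, hg]; exact ⟨x, rfl⟩⟩, em_injective d ?_⟩
    rw [em_subHom]; exact hg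
  ker z hz := by
    obtain ⟨h1, h2, h3⟩ := h.ker z (by rw [← em_subHom q d z, hz, map_one])
    refine ⟨Subtype.ext h1, ?_, fun g => Subtype.ext (h3 g)⟩
    rcases h2 with h2 | h2
    · exact Or.inl (LinearMap.ext fun x => Subtype.ext (by show π z.1 x.1 = x.1; rw [h2]; rfl))
    · exact Or.inr (LinearMap.ext fun x => Subtype.ext (by show π z.1 x.1 = -x.1; rw [h2]; rfl))
  anti e u v hu hv := by
    have := h.anti (e.trans d) u v (by rw [← em_subHom q d u, hu, em_trans]) (by rw [← em_subHom q d v, hv, em_trans])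
    exact LinearMap.ext fun x => Subtype.ext (by
      show π (u.1 * v.1) x.1 = -(π (v.1 * u.1) x.1)
      exact DFunLike.congr_fun this x.1)

theorem two_le (h : Spin q π) (h2 : (2 : k) ≠ 0) [FiniteDimensional k W] [Nontrivial W] (hm : 4 ≤ m) :
    2 ≤ finrank k W := by
  by_contra hlt
  have h1 : finrank k W = 1 := by
    have := Module.finrank_pos (R := k) (M := W)
    omega
  obtain ⟨u, hu⟩ := h.surj (em (Fin.castLEEmb hm) t4)
  obtain ⟨v, hv⟩ := h.surj (em (Fin.castLEEmb hm) u4)
  obtain ⟨w, hw, hspan⟩ := finrank_eq_one_iff'.1 h1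
  obtain ⟨a, ha⟩ := hspan (π u w)
  obtain ⟨b, hb⟩ := hspan (π v w)
  have e := DFunLike.congr_fun (h.anti _ u v hu hv) w
  rw [LinearMap.neg_apply, rep_mul_apply, rep_mul_apply, ← ha, ← hb, map_smul, map_smul, ← ha, ← hb,
    smul_smul, smul_smul, mul_comm a b, eq_neg_iff_add_eq_zero, ← two_smul k, smul_smul] at e
  have hab : b * a = 0 := (mul_eq_zero.1 ((smul_eq_zero.1 e).resolve_right hw)).resolve_left h2
  rcases mul_eq_zero.1 hab with h0 | h0
  · exact hw (rep_injective π v (by rw [← hb, h0, zero_smul, map_zero]))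
  · exact hw (rep_injective π u (by rw [← ha, h0, zero_smul, map_zero]))

/-- Lifts of non-trivial elements act non-trivially. -/
theorem ne_one (h : Spin q π) (h2 : (2 : k) ≠ 0) [Nontrivial W] (hm : 5 ≤ m) {X : Γ} (hX : q X ≠ 1) :
    π X ≠ 1 ∧ π X ≠ -1 := by
  by_contra hcon
  have hX' : π X = 1 ∨ π X = -1 := by
    by_contra hne
    push Not at hne
    exact hcon hne
  let N : Subgroup (Alt m) :=
    { carrier := {x | ∀ g, q g = x → π g = 1 ∨ π g = -1}
      one_mem' := fun g hg => (h.ker g hg).2.1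
      mul_mem' := fun {x y} hx hy g hg => by
        obtain ⟨a, ha⟩ := h.surj x
        have := hy (a⁻¹ * g) (by rw [map_mul, map_inv, hg, ha, inv_mul_cancel_left])
        have ha' := hx a ha
        rw [show g = a * (a⁻¹ * g) by group, map_mul]
        rcases ha' with e | e <;> rcases this with e' | e' <;> simp [e, e']
      inv_mem' := fun {x} hx g hg => by
        have := hx g⁻¹ (by rw [map_inv, hg, inv_inv])
        have hh : π g * π g⁻¹ = 1 := by rw [← map_mul, mul_inv_cancel, map_one]
        rcases this with e | e <;> rw [e] at hh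
        · left; simpa using hh
        · right; rw [← neg_neg (π g)]; congr 1; simpa using hh }
  have hNn : N.Normal := ⟨fun x hx y g hg => by
    obtain ⟨b, hb⟩ := h.surj y
    have := hx (b⁻¹ * g * b) (by rw [map_mul, map_mul, map_inv, hg, hb]; group)
    rw [show g = b * (b⁻¹ * g * b) * b⁻¹ by group, map_mul, map_mul]
    rcases this with e | e <;> rw [e]
    · left; rw [mul_one, ← map_mul, mul_inv_cancel, map_one]
    · right; rw [mul_neg, mul_one, neg_mul, ← map_mul, mul_inv_cancel, map_one]⟩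
  have hXN : q X ∈ N := fun g hg => by
    obtain ⟨-, hs, -⟩ := h.ker (g * X⁻¹) (by rw [map_mul, map_inv, hg, mul_inv_cancel])
    rw [show g = g * X⁻¹ * X by group, map_mul]
    rcases hs with e | e <;> rcases hX' with e' | e' <;> simp [e, e']
  haveI : IsSimpleGroup (Alt m) := alternatingGroup.isSimpleGroup (by simpa using hm)
  rcases hNn.eq_bot_or_eq_top with hb | ht
  · exact hX ((Subgroup.eq_bot_iff_forall _).1 hb _ hXN)
  · obtain ⟨u, hu⟩ := h.surj (em (Fin.castLEEmb (show 4 ≤ m by omega)) t4)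
    obtain ⟨v, hv⟩ := h.surj (em (Fin.castLEEmb (show 4 ≤ m by omega)) u4)
    have hu' := (ht ▸ Subgroup.mem_top _ : q u ∈ N) u rfl
    have hv' := (ht ▸ Subgroup.mem_top _ : q v ∈ N) v rfl
    have e := h.anti _ u v hu hv
    rw [map_mul, map_mul] at e
    obtain ⟨x, hx⟩ := exists_ne (0 : W)
    have e1 := DFunLike.congr_fun e x
    rcases hu' with a | a <;> rcases hv' with b | b <;>
      (simp [a, b] at e1
       first
       | exact hx ((smul_eq_zero.1 (show (2 : k) • x = 0 by rw [two_smul]; exact add_eq_zero_iff_eq_neg.2 e1)).resolve_left h2)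
       | exact hx ((smul_eq_zero.1 (show (2 : k) • x = 0 by
          rw [two_smul]; exact add_eq_zero_iff_eq_neg.2 e1.symm)).resolve_left h2))

end Spin

end CfsgLib.AltLinear
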