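import Cfsg.Agent.AltLinear.Perms
import Cfsg.Agent.AltLinear.Eigen

/-!
Eigenspaces of three-cycles and five-cycles in modules for alternating groups.
-/

set_option autoImplicit false

namespace CfsgLib.AltLinear

open Module Equiv

universe u v

variable {k : Type u} [Field k] {V : Type v} [AddCommGroup V] [Module k V] {m r : ℕ}

/-- The three-cycle on the three given letters. -/
noncomputable abbrev A (e : Fin 3 ↪ Fin r) : Alt r := em e c3

theorem em_eq {l : ℕ} (d : Fin l ↪ Fin m) (x : Alt l) (y : Alt m)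
    (h1 : ∀ i, y.1 (d i) = d (x.1 i)) (h2 : ∀ z, (∀ i, d i ≠ z) → y.1 z = z) : em d x = y := by
  refine alt_ext fun z => ?_
  by_cases hz : z ∈ Set.range d
  · obtain ⟨i, rfl⟩ := hz
    rw [em_apply, h1]
  · rw [em_apply_notMem d x hz, h2 z fun i hi => hz ⟨i, hi⟩]

theorem em_ne_one {l : ℕ} (d : Fin l ↪ Fin m) {x : Alt l} (h : x ≠ 1) : em d x ≠ 1 := fun h' =>
  h (em_injective d (h'.trans (map_one _).symm))

theorem c3_ne_one : c3 ≠ 1 := fun h => absurd (congrArg Subtype.val h) (by decide : finRotate 3 ≠ 1)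

theorem c5_ne_one : c5 ≠ 1 := fun h => absurd (congrArg Subtype.val h) (by decide : finRotate 5 ≠ 1)

theorem c3_pow : c3 ^ 3 = 1 := Subtype.ext (by show finRotate 3 ^ 3 = 1; decide)

theorem c5_pow : c5 ^ 5 = 1 := Subtype.ext (by show finRotate 5 ^ 5 = 1; decide)

theorem rep_pow_three (σ : Representation k (Alt r) V) (e : Fin 3 ↪ Fin r) : σ (A e) ^ 3 = 1 := by
  rw [← map_pow, ← map_pow, c3_pow, map_one, map_one]

theorem rep_pow_five (σ : Representation k (Alt r) V) (e : Fin 5 ↪ Fin r) : σ (em e c5) ^ 5 = 1 := by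
  rw [← map_pow, ← map_pow, c5_pow, map_one, map_one]

/-- The letters outside the image of an injection. -/
theorem exists_complement {l : ℕ} (e : Fin l ↪ Fin r) : ∃ c : Fin (r - l) ↪ Fin r,
    (∀ i j, c i ≠ e j) ∧ ∀ {a : ℕ} (f : Fin a ↪ Fin r), (∀ i j, f i ≠ e j) → ∃ d : Fin a ↪ Fin (r - l),
      d.trans c = f := by
  classical
  have hcard : ((Finset.univ.map e)ᶜ : Finset (Fin r)).card = r - l := by simp [Finset.card_compl]
  set c := (((Finset.univ.map e)ᶜ : Finset (Fin r)).orderEmbOfFin hcard).toEmbedding with hc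
  have hran : ∀ z, (∀ j, z ≠ e j) → ∃ i, c i = z := fun z hz => by
    have : z ∈ Set.range (((Finset.univ.map e)ᶜ : Finset (Fin r)).orderEmbOfFin hcard) := by
      rw [Finset.range_orderEmbOfFin]
      simpa [eq_comm] using hz
    exact this
  refine ⟨c, fun i j h => ?_, fun {a} f hf => ?_⟩
  · have := Finset.orderEmbOfFin_mem ((Finset.univ.map e)ᶜ : Finset (Fin r)) hcard i
    rw [Finset.mem_compl] at this
    exact this (Finset.mem_map.2 ⟨j, Finset.mem_univ _, h.symm⟩)
  · choose d hd using fun i => hran (f i) (hf i)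
    exact ⟨⟨d, fun i j h => f.injective (by rw [← hd i, ← hd j, h])⟩, Function.Embedding.ext hd⟩

theorem three_ne_zero_iff : ((3 : ℕ) : k) ≠ 0 ↔ (3 : k) ≠ 0 := by norm_num

theorem ne_inv_of_cube {μ : k} (h : μ ≠ 1) (h3 : μ ^ 3 = 1) : μ ≠ μ⁻¹ := fun h' => by
  have h0 : μ ≠ 0 := fun h0 => by simp [h0] at h3
  have h2 : μ * μ = 1 := by nth_rw 2 [h']; rw [mul_inv_cancel₀ h0]
  apply h
  rwa [pow_succ, sq, h2, one_mul] at h3

theorem inv_cube {μ : k} (h3 : μ ^ 3 = 1) : μ⁻¹ ^ 3 = 1 := by rw [inv_pow, h3, inv_one]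

theorem inv_ne_one' {μ : k} (h : μ ≠ 1) : μ⁻¹ ≠ 1 := fun h' => h (inv_eq_one.1 h')

/-- A non-trivial three-cycle is conjugate to its inverse. -/
theorem exists_inverting (hm : 5 ≤ m) (e : Fin 3 ↪ Fin m) : ∃ g : Alt m, g * A e * g⁻¹ = (A e)⁻¹ := by
  obtain ⟨g, hg⟩ := exists_em_conj e ((swap (1 : Fin 3) 2).toEmbedding.trans e) (by omega)
  refine ⟨g, ?_⟩
  rw [A, hg, em_perm e (swap 1 2) c3 c3⁻¹, map_inv]
  show (finRotate 3)⁻¹ = _
  decide

theorem eigenspace_inv (σ : Representation k (Alt m) V) (a : Alt m) (μ : k) :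
    Module.End.eigenspace (σ a⁻¹) μ ≤ Module.End.eigenspace (σ a) μ⁻¹ := fun x hx => by
  rw [Module.End.mem_eigenspace_iff] at hx ⊢
  by_cases hμ : μ = 0
  · subst hμ
    rw [zero_smul] at hx
    have : x = 0 := rep_injective σ a⁻¹ (by rw [hx, map_zero])
    simp [this]
  · have := rep_apply_inv σ a x
    rw [hx, map_smul] at this
    rw [← this, smul_smul, inv_mul_cancel₀ hμ, one_smul, this]

theorem finrank_eigen_inv [FiniteDimensional k V] (σ : Representation k (Alt m) V) (hm : 5 ≤ m)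
    (e : Fin 3 ↪ Fin m) (μ : k) :
    finrank k (Module.End.eigenspace (σ (A e)) μ⁻¹) = finrank k (Module.End.eigenspace (σ (A e)) μ) := by
  obtain ⟨g, hg⟩ := exists_inverting hm e
  have key : ∀ μ : k, finrank k (Module.End.eigenspace (σ (A e)) μ) ≤
      finrank k (Module.End.eigenspace (σ (A e)) μ⁻¹) := fun μ => by
    rw [← finrank_eigen_conj σ g (A e) μ, hg]
    exact Submodule.finrank_mono (eigenspace_inv σ _ μ)
  refine le_antisymm ?_ (key μ)
  have := key μ⁻¹
  rwa [inv_inv] at this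

/-- A non-trivial three-cycle has both non-trivial eigenvalues. -/
theorem exists_mu [IsAlgClosed k] [FiniteDimensional k V] (σ : Representation k (Alt m) V)
    (h3 : (3 : k) ≠ 0) (hm : 5 ≤ m) (hσ : ∃ g, σ g ≠ 1) (e : Fin 3 ↪ Fin m) :
    ∃ μ : k, μ ≠ 1 ∧ μ ^ 3 = 1 ∧ 0 < finrank k (Module.End.eigenspace (σ (A e)) μ) ∧
      0 < finrank k (Module.End.eigenspace (σ (A e)) μ⁻¹) := by
  obtain ⟨g, hg⟩ := hσ
  have hne : σ (A e) ≠ 1 := fun h => hg (eq_one_of_map_eq_one hm σ (em_ne_one e c3_ne_one) h g)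
  obtain ⟨μ, h1, hc, v, hv, hve⟩ :=
    exists_eigen_ne_one (σ (A e)) (three_ne_zero_iff.2 h3) (rep_pow_three σ e) hne
  have hpos : 0 < finrank k (Module.End.eigenspace (σ (A e)) μ) := by
    rw [Module.finrank_pos_iff_exists_ne_zero]
    exact ⟨⟨v, Module.End.mem_eigenspace_iff.2 hve⟩, fun h => hv (congrArg Subtype.val h)⟩
  exact ⟨μ, h1, hc, hpos, by rwa [finrank_eigen_inv σ hm e μ]⟩

/-- The eigenspaces of a three-cycle for the two non-trivial eigenvalues and one. -/
theorem three_eigen_le [FiniteDimensional k V] (σ : Representation k (Alt m) V) (e : Fin 3 ↪ Fin m)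
    {μ : k} (hμ : μ ≠ 1) (h3 : μ ^ 3 = 1) :
    finrank k (Module.End.eigenspace (σ (A e)) 1) + finrank k (Module.End.eigenspace (σ (A e)) μ) +
      finrank k (Module.End.eigenspace (σ (A e)) μ⁻¹) ≤ finrank k V := by
  set T : End k V := σ (A e)
  let w : Fin 3 → k := ![1, μ, μ⁻¹]
  have hw : ∀ i j, i ≠ j → w i ≠ w j := by
    intro i j hij
    fin_cases i <;> fin_cases j <;>
      first
      | exact absurd rfl hij
      | exact hμ
      | exact hμ.symm
      | exact ne_inv_of_cube hμ h3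
      | exact (ne_inv_of_cube hμ h3).symm
      | exact inv_ne_one' hμ
      | exact (inv_ne_one' hμ).symm
  let S : Fin 3 → End k V := fun i => (T - w (i + 1) • 1) * (T - w (i + 2) • 1)
  have key : ∀ i j, ∀ x ∈ T.eigenspace (w i), S j x = ((w i - w (j + 1)) * (w i - w (j + 2))) • x := by
    intro i j x hx
    rw [Module.End.mem_eigenspace_iff] at hx
    simp only [S, Module.End.mul_apply, LinearMap.sub_apply, LinearMap.smul_apply, Module.End.one_apply,
      hx, map_sub, map_smul]
    module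
  have := sum_finrank_le (fun i => T.eigenspace (w i)) S (fun i j hij x hx => by
    rw [key i j x hx]
    have : i = j + 1 ∨ i = j + 2 := (by decide : ∀ i j : Fin 3, i ≠ j → i = j + 1 ∨ i = j + 2) i j hij
    rcases this with h | h <;> simp [h]) fun i x hx h => by
    rw [key i i x hx, smul_eq_zero] at h
    exact h.resolve_left (mul_ne_zero (sub_ne_zero.2 (hw _ _ ((by decide : ∀ i : Fin 3, i ≠ i + 1) i)))
      (sub_ne_zero.2 (hw _ _ ((by decide : ∀ i : Fin 3, i ≠ i + 2) i))))
  rw [Fin.sum_univ_three] at this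
  exact this

/-- Five points in general position: a swap of two triangles reversing one of them. -/
theorem exists_quarter_turn (hm : 6 ≤ m) (e f : Fin 3 ↪ Fin m) (hd : ∀ i j, e i ≠ f j) :
    ∃ g : Alt m, g * A e * g⁻¹ = A f ∧ g * A f * g⁻¹ = (A e)⁻¹ := by
  let E : Fin 6 ↪ Fin m := mkEmb (Fin.append e f) (Fin.append_injective_iff.2 ⟨e.injective, f.injective, hd⟩)
  let d₁ : Fin 3 ↪ Fin 6 := mkEmb ![0, 1, 2] (by decide)
  let d₂ : Fin 3 ↪ Fin 6 := mkEmb ![3, 4, 5] (by decide)
  have he : d₁.trans E = e := Function.Embedding.ext fun i => by fin_cases i <;> rfl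
  have hf : d₂.trans E = f := Function.Embedding.ext fun i => by fin_cases i <;> rfl
  let s : Alt 6 := ⟨swap 0 3 * (swap 1 4 * swap 4 2 * swap 2 5), Perm.mem_alternatingGroup.2 (by decide)⟩
  have h1 : s * em d₁ c3 * s⁻¹ = em d₂ c3 := em_conj s d₁ d₂ c3 (by decide)
  have h2 : s * em d₂ c3 * s⁻¹ = (em d₁ c3)⁻¹ := by
    rw [em_conj s d₂ ((swap (1 : Fin 3) 2).toEmbedding.trans d₁) c3 (by decide),
      em_perm d₁ (swap 1 2) c3 c3⁻¹ (by decide), map_inv]
  refine ⟨em E s, ?_, ?_⟩
  · rw [A, A, ← he, ← hf, ← em_trans, ← em_trans, ← map_inv, ← map_mul, ← map_mul, h1]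
  · rw [A, A, ← he, ← hf, ← em_trans, ← em_trans, ← map_inv, ← map_mul, ← map_mul, h2, map_inv]

/-- If a second three-cycle acts non-trivially on an eigenspace of a first, the latter is not a line. -/
theorem two_le_of_pair [IsAlgClosed k] [FiniteDimensional k V] (σ : Representation k (Alt m) V)
    (h3 : (3 : k) ≠ 0) (hm : 6 ≤ m) (e f : Fin 3 ↪ Fin m) (hd : ∀ i j, e i ≠ f j) {μ : k} (hμ : μ ≠ 1)
    (hμ3 : μ ^ 3 = 1) (hne : ∃ x ∈ Module.End.eigenspace (σ (A e)) μ, σ (A f) x ≠ x) :
    2 ≤ finrank k (Module.End.eigenspace (σ (A e)) μ) := by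
  set U := Module.End.eigenspace (σ (A e)) μ
  have hcomm : A f * A e = A e * A f := (em_comm e f c3 c3 hd).symm
  have hU := eigen_invariant σ hcomm μ
  set T : End k U := (σ (A f)).restrict hU with hT
  have hT3 : T ^ 3 = 1 := by
    refine LinearMap.ext fun x => Subtype.ext ?_
    have := DFunLike.congr_fun (rep_pow_three σ f) x.1
    simpa [pow_succ, T, LinearMap.restrict_apply] using this
  have hT1 : T ≠ 1 := fun h => by
    obtain ⟨x, hx, hxne⟩ := hne
    exact hxne (by simpa [T] using congrArg Subtype.val (DFunLike.congr_fun h (⟨x, hx⟩ : U)))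
  obtain ⟨ν, hν, hν3, w, hw, hwe⟩ := exists_eigen_ne_one T (three_ne_zero_iff.2 h3) hT3 hT1
  obtain ⟨g, hge, hgf⟩ := exists_quarter_turn hm e f hd
  have key : ∀ (v : V) (a b : k), a ≠ 0 → b ≠ 0 → σ (A e) v = a • v → σ (A f) v = b • v →
      σ (A e) (σ g v) = b⁻¹ • σ g v ∧ σ (A f) (σ g v) = a • σ g v := by
    intro v a b ha hb h1 h2
    constructor
    · rw [← Module.End.mem_eigenspace_iff]
      refine eigenspace_inv σ (A e) b ?_
      rw [← hgf, mem_eigen_conj, Module.End.mem_eigenspace_iff]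
      exact h2
    · rw [← Module.End.mem_eigenspace_iff, ← hge, mem_eigen_conj, Module.End.mem_eigenspace_iff]
      exact h1
  have hμ0 : μ ≠ 0 := fun h => by simp [h] at hμ3
  have hν0 : ν ≠ 0 := fun h => by simp [h] at hν3
  have hwν : σ (A f) w.1 = ν • w.1 := congrArg Subtype.val hwe
  have hwμ : σ (A e) w.1 = μ • w.1 := Module.End.mem_eigenspace_iff.1 w.2
  obtain ⟨k1, l1⟩ := key w.1 μ ν hμ0 hν0 hwμ hwν
  obtain ⟨k2, l2⟩ := key _ _ _ (inv_ne_zero hν0) hμ0 k1 l1
  obtain ⟨k3, l3⟩ := key _ _ _ (inv_ne_zero hμ0) (inv_ne_zero hν0) k2 l2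
  rw [inv_inv] at k3
  have roots : ν = μ ∨ ν = μ⁻¹ := by
    have hr : ν ^ 2 + ν + 1 = 0 := by
      have : (ν - 1) * (ν ^ 2 + ν + 1) = 0 := by linear_combination hν3
      exact (mul_eq_zero.1 this).resolve_left (sub_ne_zero.2 hν)
    have hm' : μ ^ 2 + μ + 1 = 0 := by
      have : (μ - 1) * (μ ^ 2 + μ + 1) = 0 := by linear_combination hμ3
      exact (mul_eq_zero.1 this).resolve_left (sub_ne_zero.2 hμ)
    have : (ν - μ) * (ν + μ + 1) = 0 := by linear_combination hr - hm'
    rcases mul_eq_zero.1 this with h | h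
    · exact Or.inl (sub_eq_zero.1 h)
    · refine Or.inr (eq_inv_of_mul_eq_one_left ?_)
      linear_combination μ * h - hm'
  -- a second weight of the same first coordinate
  obtain ⟨v, hv0, hvμ, hvν⟩ : ∃ v : V, v ≠ 0 ∧ σ (A e) v = μ • v ∧ σ (A f) v = ν⁻¹ • v := by
    rcases roots with h | h
    · exact ⟨σ g (σ g (σ g w.1)), fun h0 => hw (Subtype.ext
        (rep_injective σ g (rep_injective σ g (rep_injective σ g (by simpa using h0))))),
        by rw [k3, h], by rw [l3, h]⟩
    · exact ⟨σ g w.1, fun h0 => hw (Subtype.ext (rep_injective σ g (by simpa using h0))),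
        by rw [k1, h, inv_inv], by rw [l1, h, inv_inv]⟩
  classical
  have hne' : ν ≠ ν⁻¹ := ne_inv_of_cube hν hν3
  have hS := card_weights_le (fun _ : Unit => T) (fun _ _ => Commute.refl T) {fun _ => ν, fun _ => ν⁻¹}
    (fun χ hχ => by
      rw [Finset.mem_insert, Finset.mem_singleton] at hχ
      rcases hχ with rfl | rfl
      · exact ⟨w, hw, fun _ => hwe⟩
      · exact ⟨⟨v, Module.End.mem_eigenspace_iff.2 hvμ⟩, fun h => hv0 (congrArg Subtype.val h),
          fun _ => Subtype.ext hvν⟩)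
  rwa [Finset.card_pair (fun h => hne' (congrFun h ()))] at hS

/-- The lower bound from disjoint three-cycles. -/
theorem weakThree [IsAlgClosed k] (h3 : (3 : k) ≠ 0) : ∀ (c m : ℕ), 3 * c ≤ m → 5 ≤ m →
    ∀ {W : Type v} [AddCommGroup W] [Module k W] [FiniteDimensional k W]
      (σ : Representation k (Alt m) W), (∃ g, σ g ≠ 1) → 2 * c ≤ finrank k W := by
  intro c
  induction c with
  | zero => intros; omega
  | succ c ih =>
    intro m hcm hm W _ _ _ σ hσ
    let b : Fin (c + 1) → Fin 3 ↪ Fin m := fun i => mkEmb (fun j => ⟨3 * i.val + j.val, by omega⟩)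
      (fun a a' h => Fin.ext (by simpa using congrArg Fin.val h))
    have hb : ∀ i i', i ≠ i' → ∀ j j', b i j ≠ b i' j' := fun i i' hii j j' h => by
      have : 3 * i.val + j.val = 3 * i'.val + j'.val := congrArg Fin.val h
      have := j.isLt
      have := j'.isLt
      exact hii (Fin.ext (by omega))
    obtain ⟨μ₀, hμ₀, hμ₀3, hp, hp'⟩ := exists_mu σ h3 hm hσ (b 0)
    by_cases hall : ∀ i i', i ≠ i' → ∀ μ : k, μ ≠ 1 → μ ^ 3 = 1 →
        ∀ x ∈ Module.End.eigenspace (σ (A (b i))) μ, σ (A (b i')) x = x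
    · choose μ hμ hμ3 hpos hpos' using fun i => exists_mu σ h3 hm hσ (b i)
      let w : Fin (c + 1) × Bool → k := fun z => if z.2 then μ z.1 else (μ z.1)⁻¹
      have hw : ∀ z, w z ≠ 1 ∧ w z ^ 3 = 1 := fun z => by
        obtain ⟨i, e⟩ := z
        cases e <;> simp only [w, if_true, Bool.false_eq_true, if_false]
        · exact ⟨inv_ne_one' (hμ i), inv_cube (hμ3 i)⟩
        · exact ⟨hμ i, hμ3 i⟩
      let T : Fin (c + 1) × Bool → End k W := fun z =>
        (σ (A (b z.1)) - (w (z.1, !z.2)) • 1) * (σ (A (b z.1)) - 1)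
      have := sum_finrank_le (fun z => Module.End.eigenspace (σ (A (b z.1))) (w z)) T
        (fun z z' hzz x hx => by
          obtain ⟨i, e⟩ := z
          obtain ⟨i', e'⟩ := z'
          simp only [T, Module.End.mul_apply, LinearMap.sub_apply, Module.End.one_apply]
          by_cases hii : i = i'
          · subst hii
            have he : e' = !e := by cases e <;> cases e' <;> first | rfl | exact absurd rfl hzz
            rw [Module.End.mem_eigenspace_iff] at hx
            subst he
            simp only [Bool.not_not, hx, LinearMap.smul_apply, Module.End.one_apply, map_sub, map_smul]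
            module
          · rw [hall i i' hii _ (hw (i, e)).1 (hw (i, e)).2 x hx, sub_self]
            simp)
        (fun z x hx h => by
          obtain ⟨i, e⟩ := z
          rw [Module.End.mem_eigenspace_iff] at hx
          simp only [T, Module.End.mul_apply, LinearMap.sub_apply, Module.End.one_apply,
            LinearMap.smul_apply, hx, map_sub, map_smul] at h
          have h' : ((w (i, e) - 1) * (w (i, e) - w (i, !e))) • x = 0 := by
            rw [← h]; module
          refine (smul_eq_zero.1 h').resolve_left (mul_ne_zero (sub_ne_zero.2 (hw _).1) (sub_ne_zero.2 ?_))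
          have := ne_inv_of_cube (hμ i) (hμ3 i)
          cases e
          · exact this.symm
          · exact this)
      refine le_trans ?_ this
      calc 2 * (c + 1) = ∑ _z : Fin (c + 1) × Bool, 1 := by simp; ring
        _ ≤ _ := Finset.sum_le_sum fun z _ => by
            obtain ⟨i, e⟩ := z
            cases e
            · exact hpos' i
            · exact hpos i
    · push Not at hall
      obtain ⟨i, i', hii, μ, hμ, hμ3, x, hx, hxne⟩ := hall
      have hE2 := two_le_of_pair σ h3 (by omega) (b i) (b i') (hb i i' hii) hμ hμ3 ⟨x, hx, hxne⟩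
      have hEc : 2 * c ≤ finrank k (Module.End.eigenspace (σ (A (b i))) μ) := by
        by_cases hc : c ≤ 1
        · omega
        obtain ⟨d, hd, hfac⟩ := exists_complement (b i)
        obtain ⟨d', hd'⟩ := hfac (b i') fun a a' => hb i' i (Ne.symm hii) a a'
        have hU : ∀ g, ∀ y ∈ Module.End.eigenspace (σ (A (b i))) μ, σ (em d g) y ∈ _ := fun g =>
          eigen_invariant σ (em_comm d (b i) g c3 hd) μ
        refine ih (m - 3) (by omega) (by omega)
          (restrictRep (σ.comp (em d)) _ hU) ⟨em d' c3, fun h => hxne ?_⟩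
        have := (restrictRep_eq_one_iff _ _ hU _).1 h x hx
        rwa [MonoidHom.comp_apply, em_trans, hd'] at this
      have hinv := finrank_eigen_inv σ hm (b i) μ
      have := three_eigen_le σ (b i) hμ hμ3
      omega

end CfsgLib.AltLinear
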