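import Cfsg.Agent.AltLinear.TwoBasic

/-!
In characteristic two the alternating group of odd degree `r ≥ 9` has no faithful module of
dimension at most `r - 2`.
-/

set_option autoImplicit false
set_option linter.unusedSectionVars false

namespace CfsgLib.AltLinear

open Module Equiv

universe u v

variable {k : Type u} [Field k] [IsAlgClosed k] {V : Type v} [AddCommGroup V] [Module k V]
  [FiniteDimensional k V] {r : ℕ}

/-- The commutator space of a three-cycle. -/
noncomputable def Dsp (σ : Representation k (Alt r) V) (e : Fin 3 ↪ Fin r) : Submodule k V :=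
  LinearMap.range (σ (A e) - 1)

/-- The three-cycle `(0 1 2)` of degree five. -/
def t012 : Alt 5 := ⟨swap 0 1 * swap 1 2, Perm.mem_alternatingGroup.2 (by decide)⟩

/-- The three-cycle `(0 3 4)` of degree five. -/
def t034 : Alt 5 := ⟨swap 0 3 * swap 3 4, Perm.mem_alternatingGroup.2 (by decide)⟩

theorem map_Dsp (σ : Representation k (Alt r) V) (g : Alt r) (e e' : Fin 3 ↪ Fin r)
    (h : ∀ i, g.1 (e i) = e' i) : (Dsp σ e).map (σ g) = Dsp σ e' := by
  rw [Dsp, map_range_conj, em_conj g e e' c3 h]; rfl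

theorem Dsp_rot (σ : Representation k (Alt r) V) (e : Fin 3 ↪ Fin r) :
    Dsp σ ((finRotate 3).toEmbedding.trans e) = Dsp σ e := by
  rw [Dsp, A, em_perm e (finRotate 3) c3 c3 (by decide)]; rfl

theorem Dsp_flip (σ : Representation k (Alt r) V) (e : Fin 3 ↪ Fin r) :
    Dsp σ ((swap (1 : Fin 3) 2).toEmbedding.trans e) = Dsp σ e := by
  rw [Dsp, Dsp, A, A, em_perm e (swap 1 2) c3 c3⁻¹ (by decide), map_inv]
  set g := em e c3
  refine le_antisymm ?_ ?_
  · rintro _ ⟨x, rfl⟩
    exact ⟨-(σ g⁻¹ x), by simp [rep_apply_inv]; abel⟩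
  · rintro _ ⟨x, rfl⟩
    exact ⟨-(σ g x), by simp [rep_inv_apply]; abel⟩

theorem range_sub_one_mul_le (σ : Representation k (Alt r) V) {U : Submodule k V} {g h : Alt r}
    (hg : LinearMap.range (σ g - 1) ≤ U) (hh : LinearMap.range (σ h - 1) ≤ U) :
    LinearMap.range (σ (g * h) - 1) ≤ U := by
  rintro _ ⟨x, rfl⟩
  have h1 : σ h x - x ∈ U := hh ⟨x, by simp⟩
  have h2 : σ g (σ h x) - σ h x ∈ U := hg ⟨σ h x, by simp⟩
  have := U.add_mem h2 h1
  rw [LinearMap.sub_apply, Module.End.one_apply, rep_mul_apply]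
  rwa [sub_add_sub_cancel] at this

theorem exists_preimage_em {l : ℕ} (c : Fin l ↪ Fin r) (g : Alt r) (h : ∀ z, z ∉ Set.range c → g.1 z = z) :
    ∃ x, em c x = g := by
  classical
  have hran : ∀ i, g.1 (c i) ∈ Set.range c := fun i => by
    by_contra hn
    have := g.1.injective (h _ hn)
    exact hn ⟨i, this.symm⟩
  choose f hf using hran
  have hinj : Function.Injective f := fun i j hij => c.injective (g.1.injective (by rw [← hf i, ← hf j, hij]))
  let p : Perm (Fin l) := Equiv.ofBijective f ⟨hinj, hinj.surjective_of_finite (Equiv.refl _)⟩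
  have hp : ∀ i, g.1 (c i) = c (p i) := fun i => (hf i).symm
  have hvia : Perm.viaEmbeddingHom c p = g.1 := by
    refine Equiv.ext fun z => ?_
    rw [Perm.viaEmbeddingHom_apply]
    by_cases hz : z ∈ Set.range c
    · obtain ⟨i, rfl⟩ := hz
      rw [Perm.viaEmbedding_apply, hp]
    · rw [Perm.viaEmbedding_apply_of_notMem _ _ _ hz, h z hz]
  have hsgn : p ∈ alternatingGroup (Fin l) := by
    rw [Perm.mem_alternatingGroup]
    have := Perm.mem_alternatingGroup.1 g.2
    rwa [← hvia, Perm.viaEmbeddingHom_apply, Perm.viaEmbedding, Perm.sign_extendDomain] at this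
  exact ⟨⟨p, hsgn⟩, em_eq c _ g hp fun z hz => h z fun ⟨i, hi⟩ => hz i hi⟩

theorem exists_two_outside (S : Finset (Fin r)) (hr : S.card + 2 ≤ r) :
    ∃ a b : Fin r, a ∉ S ∧ b ∉ S ∧ a ≠ b := by
  have : 1 < Sᶜ.card := by rw [Finset.card_compl, Fintype.card_fin]; omega
  obtain ⟨a, ha, b, hb, hab⟩ := Finset.one_lt_card.1 this
  rw [Finset.mem_compl] at ha hb
  exact ⟨a, b, ha, hb, hab⟩

variable {σ : Representation k (Alt r) V}

namespace SmallTwo

theorem finrank_Dsp (h : SmallTwo σ) (e : Fin 3 ↪ Fin r) : finrank k (Dsp σ e) = 2 := by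
  have hr := h.deg
  obtain ⟨μ, hμ, hμ3, -, -⟩ := exists_mu σ h.three_ne (by omega)
    ⟨A e, fun h1 => em_ne_one e c3_ne_one (h.inj _ h1)⟩ e
  set T : End k V := σ (A e) with hT
  have heq : Dsp σ e = T.eigenspace μ ⊔ T.eigenspace μ⁻¹ := by
    refine le_antisymm ?_ (sup_le (eigenspace_le_range T hμ) (eigenspace_le_range T (inv_ne_one' hμ)))
    rintro _ ⟨x, rfl⟩
    have hμ0 : μ ≠ 0 := fun h0 => by simp [h0] at hμ3
    have hne : μ - μ⁻¹ ≠ 0 := sub_ne_zero.2 (ne_inv_of_cube hμ hμ3)
    have hsum : μ + μ⁻¹ = -1 := by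
      have : μ ^ 2 + μ + 1 = 0 := by
        have : (μ - 1) * (μ ^ 2 + μ + 1) = 0 := by linear_combination hμ3
        exact (mul_eq_zero.1 this).resolve_left (sub_ne_zero.2 hμ)
      field_simp
      linear_combination this
    have hprod : μ * μ⁻¹ = 1 := mul_inv_cancel₀ hμ0
    set y := (σ (A e) - 1) x with hy
    have hrel : T (T y) + T y + y = 0 := by
      have := DFunLike.congr_fun (rep_pow_three σ e) x
      simp only [pow_succ, pow_zero, one_mul, Module.End.mul_apply, Module.End.one_apply] at this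
      simp only [hy, hT, LinearMap.sub_apply, Module.End.one_apply, map_sub, this]
      abel
    have hsplit : y = (μ - μ⁻¹)⁻¹ • ((T y - μ⁻¹ • y) - (T y - μ • y)) := by
      rw [sub_sub_sub_cancel_left, ← sub_smul, smul_smul, inv_mul_cancel₀ hne, one_smul]
    rw [hsplit, smul_sub]
    have hTT : T (T y) = -(T y) - y := by rw [eq_sub_iff_add_eq, eq_neg_iff_add_eq_zero, ← hrel]; abel
    refine Submodule.sub_mem _ (Submodule.smul_mem _ _ (Submodule.mem_sup_left ?_))
      (Submodule.smul_mem _ _ (Submodule.mem_sup_right ?_)) <;>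
      rw [Module.End.mem_eigenspace_iff, map_sub, map_smul, hTT]
    · linear_combination (norm := module) -(hsum • (T y)) + hprod • y
    · linear_combination (norm := module) -(hsum • (T y)) + hprod • y
  have hinf : T.eigenspace μ ⊓ T.eigenspace μ⁻¹ = ⊥ := (Submodule.eq_bot_iff _).2 fun x hx => by
    obtain ⟨h1, h2⟩ := Submodule.mem_inf.1 hx
    rw [Module.End.mem_eigenspace_iff] at h1 h2
    rw [h1] at h2
    exact (smul_eq_zero.1 (show (μ - μ⁻¹) • x = 0 by rw [sub_smul, h2, sub_self])).resolve_left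
      (sub_ne_zero.2 (ne_inv_of_cube hμ hμ3))
  have := Submodule.finrank_sup_add_finrank_inf_eq (T.eigenspace μ) (T.eigenspace μ⁻¹)
  rw [hinf, finrank_bot, add_zero] at this
  rw [heq, this, hT, h.finrank_eigen_eq_one e hμ hμ3, h.finrank_eigen_eq_one e (inv_ne_one' hμ) (inv_cube hμ3)]

theorem fix_Dsp (h : SmallTwo σ) (e f : Fin 3 ↪ Fin r) (hd : ∀ i j, f i ≠ e j) {x : V} (hx : x ∈ Dsp σ e) :
    σ (A f) x = x := by
  obtain ⟨y, rfl⟩ := hx
  have hr := h.deg
  have hss := (isSemisimple_of_pow (σ (A e)) (three_ne_zero_iff.2 h.three_ne)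
    (rep_pow_three σ e)).isFinitelySemisimple
  have htop := Module.End.iSup_maxGenEigenspace_eq_top (σ (A e))
  rw [hss.iSup_maxGenEigenspace_eq_top_iff] at htop
  have hle : (⨆ μ, Module.End.eigenspace (σ (A e)) μ) ≤ (LinearMap.ker (σ (A f) - 1)).comap (σ (A e) - 1) := by
    refine iSup_le fun μ v hv => ?_
    simp only [Submodule.mem_comap, LinearMap.mem_ker, LinearMap.sub_apply, Module.End.one_apply]
    have hv' := Module.End.mem_eigenspace_iff.1 hv
    by_cases hv0 : v = 0
    · simp [hv0]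
    by_cases hμ : μ = 1
    · simp [hv', hμ]
    rw [hv', map_sub, map_smul,
      h.fix e f hd hμ (eigen_pow_eq_one _ (rep_pow_three σ e) hv0 hv') hv, sub_self]
  have := hle (htop ▸ Submodule.mem_top (x := y))
  simpa [sub_eq_zero] using this

theorem Dsp_inf_fixed (h : SmallTwo σ) (e : Fin 3 ↪ Fin r) {x : V} (hx : x ∈ Dsp σ e)
    (hfix : σ (A e) x = x) : x = 0 := by
  obtain ⟨y, rfl⟩ := hx
  have := sub_one_eq_zero_of_sq (σ (A e)) (three_ne_zero_iff.2 h.three_ne) (rep_pow_three σ e) (x := y)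
    (by simpa using hfix)
  simp [this]

/-- Three-cycles on two common letters have meeting commutator spaces. -/
theorem inter_ne_bot (h : SmallTwo σ) (q : Fin 4 ↪ Fin r) :
    Dsp σ ((mkEmb ![0, 1, 2] (by decide) : Fin 3 ↪ Fin 4).trans q) ⊓
      Dsp σ ((mkEmb ![0, 1, 3] (by decide) : Fin 3 ↪ Fin 4).trans q) ≠ ⊥ := by
  intro hbot
  have hr := h.deg
  let W : (Fin 4 ↪ Fin r) → Submodule k V := fun q =>
    Dsp σ ((mkEmb ![0, 1, 2] (by decide) : Fin 3 ↪ Fin 4).trans q) ⊔
      Dsp σ ((mkEmb ![0, 1, 3] (by decide) : Fin 3 ↪ Fin 4).trans q)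
  have hW4 : ∀ q', finrank k (W q') = 4 := by
    intro q'
    obtain ⟨g, hg⟩ := exists_even_map q q' (by omega)
    have hmap : ∀ d : Fin 3 ↪ Fin 4, (Dsp σ (d.trans q)).map (σ g) = Dsp σ (d.trans q') := fun d =>
      map_Dsp σ g _ _ fun i => hg (d i)
    have : finrank k (W q') = finrank k (W q) := by
      have e : W q' = (W q).map (σ g) := by simp only [W, Submodule.map_sup, hmap]
      rw [e, finrank_map_rep]
    rw [this]
    have := Submodule.finrank_sup_add_finrank_inf_eq
      (Dsp σ ((mkEmb ![0, 1, 2] (by decide) : Fin 3 ↪ Fin 4).trans q))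
      (Dsp σ ((mkEmb ![0, 1, 3] (by decide) : Fin 3 ↪ Fin 4).trans q))
    rw [hbot, finrank_bot, h.finrank_Dsp, h.finrank_Dsp] at this
    simpa [W] using this
  let d4 : Fin 4 ↪ Fin 5 := mkEmb ![0, 1, 2, 3] (by decide)
  have hall : ∀ (E : Fin 5 ↪ Fin r) (d : Fin 3 ↪ Fin 5) (x : Alt 5), em d c3 = x →
      x ∈ Submonoid.closure ({t012, t034} : Set (Alt 5)) → Dsp σ (d.trans E) ≤ W (d4.trans E) := by
    intro E d x hdx hx
    set U := Dsp σ ((mkEmb ![0, 1, 2] (by decide) : Fin 3 ↪ Fin 5).trans E) ⊔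
      Dsp σ ((mkEmb ![0, 3, 4] (by decide) : Fin 3 ↪ Fin 5).trans E)
    have e1 : em (mkEmb ![0, 1, 2] (by decide) : Fin 3 ↪ Fin 5) c3 = t012 :=
      em_eq _ _ _ (by decide) (by decide)
    have e2 : em (mkEmb ![0, 3, 4] (by decide) : Fin 3 ↪ Fin 5) c3 = t034 :=
      em_eq _ _ _ (by decide) (by decide)
    have hmem : ∀ y ∈ Submonoid.closure ({t012, t034} : Set (Alt 5)),
        LinearMap.range (σ (em E y) - 1) ≤ U := by
      intro y hy
      induction hy using Submonoid.closure_induction with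
      | mem y hy =>
        rcases hy with rfl | rfl
        · rw [← e1, em_trans]; exact le_sup_left
        · rw [← e2, em_trans]; exact le_sup_right
      | one => simp
      | mul a b _ _ ha hb => rw [map_mul]; exact range_sub_one_mul_le σ ha hb
    have hU4 : finrank k U ≤ 4 := by
      refine (Submodule.finrank_add_le_finrank_add_finrank _ _).trans ?_
      rw [h.finrank_Dsp, h.finrank_Dsp]
    have hD : ∀ d : Fin 3 ↪ Fin 5, em d c3 ∈ Submonoid.closure ({t012, t034} : Set (Alt 5)) →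
        Dsp σ (d.trans E) ≤ U := fun d hd => by
      have := hmem _ hd
      rwa [em_trans] at this
    have m1 : t012 ∈ Submonoid.closure ({t012, t034} : Set (Alt 5)) := Submonoid.subset_closure (Or.inl rfl)
    have m2 : t034 ∈ Submonoid.closure ({t012, t034} : Set (Alt 5)) := Submonoid.subset_closure (Or.inr rfl)
    have h013 : Dsp σ ((mkEmb ![0, 1, 3] (by decide) : Fin 3 ↪ Fin 5).trans E) ≤ U := by
      refine hD _ ?_
      rw [em_eq _ _ (t012 * t034 * t012 * t012 * t034 * t034) (by decide) (by decide)]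
      exact mul_mem (mul_mem (mul_mem (mul_mem (mul_mem m1 m2) m1) m1) m2) m2
    have hle : W (d4.trans E) ≤ U := by
      refine sup_le ?_ ?_
      · refine le_trans (le_of_eq ?_) (le_sup_left : _ ≤ U)
        congr 1
        ext i; fin_cases i <;> rfl
      · refine le_trans (le_of_eq ?_) h013
        congr 1
        ext i; fin_cases i <;> rfl
    have heq : W (d4.trans E) = U := Submodule.eq_of_le_of_finrank_le hle (by rw [hW4]; exact hU4)
    rw [heq]
    exact hD d (hdx ▸ hx)
  -- relations between four-sets sharing three letters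
  have m1 : t012 ∈ Submonoid.closure ({t012, t034} : Set (Alt 5)) := Submonoid.subset_closure (Or.inl rfl)
  have m2 : t034 ∈ Submonoid.closure ({t012, t034} : Set (Alt 5)) := Submonoid.subset_closure (Or.inr rfl)
  have h023 : ∀ E : Fin 5 ↪ Fin r, W ((mkEmb ![0, 2, 3, 4] (by decide) : Fin 4 ↪ Fin 5).trans E) = W (d4.trans E) := by
    intro E
    refine Submodule.eq_of_le_of_finrank_le ?_ (le_of_eq (by rw [hW4, hW4]))
    refine sup_le (le_trans (le_of_eq ?_) (hall E (mkEmb ![0, 2, 3] (by decide))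
        (t012 * t012 * t034 * t012 * t034 * t034) (em_eq _ _ _ (by decide) (by decide))
        (mul_mem (mul_mem (mul_mem (mul_mem (mul_mem m1 m1) m2) m1) m2) m2)))
      (le_trans (le_of_eq ?_) (hall E (mkEmb ![0, 2, 4] (by decide))
        (t012 * t012 * t034 * t034 * t012 * t034) (em_eq _ _ _ (by decide) (by decide))
        (mul_mem (mul_mem (mul_mem (mul_mem (mul_mem m1 m1) m2) m2) m1) m2))) <;>
      (congr 1; ext i; fin_cases i <;> rfl)
  have h123 : ∀ E : Fin 5 ↪ Fin r,
      Dsp σ ((mkEmb ![1, 2, 3] (by decide) : Fin 3 ↪ Fin 5).trans E) ≤ W (d4.trans E) := fun E =>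
    hall E (mkEmb ![1, 2, 3] (by decide)) (t034 * t012 * t034 * t034)
      (em_eq _ _ _ (by decide) (by decide)) (mul_mem (mul_mem (mul_mem m2 m1) m2) m2)
  let p : Fin 9 ↪ Fin r := Fin.castLEEmb hr
  let Q : (Fin 4 ↪ Fin 9) → Submodule k V := fun s => W (s.trans p)
  have step : ∀ s : Fin 5 ↪ Fin 9, Q ((mkEmb ![0, 2, 3, 4] (by decide) : Fin 4 ↪ Fin 5).trans s) =
      Q (d4.trans s) := fun s => h023 (s.trans p)
  let q0 : Fin 4 ↪ Fin 9 := mkEmb ![0, 1, 2, 3] (by decide)
  let q1 : Fin 4 ↪ Fin 9 := mkEmb ![0, 2, 3, 4] (by decide)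
  let q2 : Fin 4 ↪ Fin 9 := mkEmb ![0, 3, 4, 5] (by decide)
  let q3 : Fin 4 ↪ Fin 9 := mkEmb ![0, 4, 5, 6] (by decide)
  let q4 : Fin 4 ↪ Fin 9 := mkEmb ![0, 5, 6, 7] (by decide)
  let q5 : Fin 4 ↪ Fin 9 := mkEmb ![0, 6, 7, 8] (by decide)
  have e01 : Q q1 = Q q0 := by
    convert step (mkEmb ![0, 1, 2, 3, 4] (by decide)) using 2 <;> (ext i; fin_cases i <;> rfl)
  have e12 : Q q2 = Q q1 := by
    convert step (mkEmb ![0, 2, 3, 4, 5] (by decide)) using 2 <;> (ext i; fin_cases i <;> rfl)
  have e23 : Q q3 = Q q2 := by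
    convert step (mkEmb ![0, 3, 4, 5, 6] (by decide)) using 2 <;> (ext i; fin_cases i <;> rfl)
  have e34 : Q q4 = Q q3 := by
    convert step (mkEmb ![0, 4, 5, 6, 7] (by decide)) using 2 <;> (ext i; fin_cases i <;> rfl)
  have e45 : Q q5 = Q q4 := by
    convert step (mkEmb ![0, 5, 6, 7, 8] (by decide)) using 2 <;> (ext i; fin_cases i <;> rfl)
  let b : Fin 3 → Fin 3 ↪ Fin 9 := ![mkEmb ![0, 1, 2] (by decide), mkEmb ![3, 4, 5] (by decide),
    mkEmb ![6, 7, 8] (by decide)]
  have hb : ∀ i, Dsp σ ((b i).trans p) ≤ Q q0 := by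
    intro i
    fin_cases i
    · refine le_trans (le_of_eq ?_) (le_sup_left : _ ≤ W (q0.trans p))
      congr 1; ext j; fin_cases j <;> rfl
    · rw [← e01, ← e12]
      refine le_trans (le_of_eq ?_) (le_trans (h123 ((mkEmb ![0, 3, 4, 5, 6] (by decide) : Fin 5 ↪ Fin 9).trans p))
        (le_of_eq ?_)) <;> (congr 1; ext j; fin_cases j <;> rfl)
    · rw [← e01, ← e12, ← e23, ← e34, ← e45]
      refine le_trans (le_of_eq ?_) (le_trans (h123 ((mkEmb ![0, 6, 7, 8, 1] (by decide) : Fin 5 ↪ Fin 9).trans p))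
        (le_of_eq ?_)) <;> (congr 1; ext j; fin_cases j <;> rfl)
  have hsum := sum_finrank_le (V := Q q0) (fun i => (Dsp σ ((b i).trans p)).comap (Q q0).subtype)
    (fun i => LinearMap.restrict (σ (A ((b i).trans p)) - 1) (p := Q q0) (q := Q q0)
      (fun x _ => hb i ⟨x, rfl⟩))
    (fun i j hij x hx => Subtype.ext (by
      have hdis : ∀ a a', b j a ≠ b i a' :=
        (by decide : ∀ i j : Fin 3, i ≠ j → ∀ a a', b j a ≠ b i a') i j hij
      have := h.fix_Dsp ((b i).trans p) ((b j).trans p) (fun a a' hh => hdis a a' (p.injective hh))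
        (x := x.1) hx
      show σ (A ((b j).trans p)) x.1 - x.1 = 0
      rw [this, sub_self]))
    (fun i x hx h0 => Subtype.ext (by
      refine h.Dsp_inf_fixed _ hx (sub_eq_zero.1 ?_)
      simpa using congrArg Subtype.val h0))
  have hf : ∀ i, finrank k ((Dsp σ ((b i).trans p)).comap (Q q0).subtype) = 2 := fun i => by
    rw [(Submodule.comapSubtypeEquivOfLe (hb i)).finrank_eq, h.finrank_Dsp]
  simp only [hf, Finset.sum_const, Finset.card_univ, Fintype.card_fin, smul_eq_mul] at hsum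
  have : finrank k (Q q0) = 4 := hW4 _
  omega

/-- The module cannot exist. -/
theorem false_of_small (h : SmallTwo σ) : False := by
  classical
  have hr := h.deg
  let q0 : Fin 4 ↪ Fin r := (mkEmb ![0, 1, 2, 3] (by decide) : Fin 4 ↪ Fin 9).trans (Fin.castLEEmb hr)
  let P₂ : Fin 3 ↪ Fin r := (mkEmb ![0, 1, 2] (by decide) : Fin 3 ↪ Fin 4).trans q0
  let P₃ : Fin 3 ↪ Fin r := (mkEmb ![0, 1, 3] (by decide) : Fin 3 ↪ Fin 4).trans q0
  have hne : Dsp σ P₂ ≠ Dsp σ P₃ := by
    intro heq
    have hall : ∀ q : Fin 4 ↪ Fin r, Dsp σ ((mkEmb ![0, 1, 2] (by decide) : Fin 3 ↪ Fin 4).trans q) =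
        Dsp σ ((mkEmb ![0, 1, 3] (by decide) : Fin 3 ↪ Fin 4).trans q) := by
      intro q
      obtain ⟨g, hg⟩ := exists_even_map q0 q (by omega)
      rw [← map_Dsp σ g P₂ ((mkEmb ![0, 1, 2] (by decide) : Fin 3 ↪ Fin 4).trans q) fun i => hg _,
        ← map_Dsp σ g P₃ ((mkEmb ![0, 1, 3] (by decide) : Fin 3 ↪ Fin 4).trans q) fun i => hg _, heq]
    let p : Fin 9 ↪ Fin r := Fin.castLEEmb hr
    let D : (Fin 3 ↪ Fin 9) → Submodule k V := fun e => Dsp σ (e.trans p)
    have s : ∀ s : Fin 4 ↪ Fin 9, D ((mkEmb ![0, 1, 2] (by decide) : Fin 3 ↪ Fin 4).trans s) =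
        D ((mkEmb ![0, 1, 3] (by decide) : Fin 3 ↪ Fin 4).trans s) := fun s => hall (s.trans p)
    have rot : ∀ e : Fin 3 ↪ Fin 9, D ((finRotate 3).toEmbedding.trans e) = D e := fun e =>
      Dsp_rot σ (e.trans p)
    let T : Fin 6 → Fin 3 ↪ Fin 9 := ![mkEmb ![0, 1, 2] (by decide), mkEmb ![0, 1, 3] (by decide),
      mkEmb ![3, 0, 1] (by decide), mkEmb ![3, 0, 4] (by decide), mkEmb ![4, 3, 0] (by decide),
      mkEmb ![4, 3, 5] (by decide)]
    have a1 : D (T 0) = D (T 1) := by
      convert s (mkEmb ![0, 1, 2, 3] (by decide)) using 2 <;> (ext i; fin_cases i <;> rfl)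
    have a2 : D (T 2) = D (T 1) := by
      rw [← rot (T 2)]; congr 1; ext i; fin_cases i <;> rfl
    have a3 : D (T 2) = D (T 3) := by
      convert s (mkEmb ![3, 0, 1, 4] (by decide)) using 2 <;> (ext i; fin_cases i <;> rfl)
    have a4 : D (T 4) = D (T 3) := by
      rw [← rot (T 4)]; congr 1; ext i; fin_cases i <;> rfl
    have a5 : D (T 4) = D (T 5) := by
      convert s (mkEmb ![4, 3, 0, 5] (by decide)) using 2 <;> (ext i; fin_cases i <;> rfl)
    have hD : D (T 0) = D (T 5) := by rw [a1, ← a2, a3, ← a4, a5]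
    have hz : D (T 5) = ⊥ := (Submodule.eq_bot_iff _).2 fun x hx => by
      refine h.Dsp_inf_fixed _ hx (h.fix_Dsp ((T 0).trans p) _ (fun i j hij => ?_) (show x ∈ D (T 0) by rw [hD]; exact hx))
      exact (by decide : ∀ i j : Fin 3, T 5 i ≠ T 0 j) i j (p.injective hij)
    have := h.finrank_Dsp ((T 5).trans p)
    rw [show Dsp σ ((T 5).trans p) = ⊥ from hz, finrank_bot] at this
    omega
  obtain ⟨v, hvmem, hv0⟩ := Submodule.exists_mem_ne_zero_of_ne_bot (h.inter_ne_bot q0)
  have hv2 : v ∈ Dsp σ P₂ := hvmem.1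
  have hv3 : v ∈ Dsp σ P₃ := hvmem.2
  have hline : ∀ x, x ∈ Dsp σ P₂ → x ∈ Dsp σ P₃ → ∃ a : k, a • v = x := by
    intro x h2 h3
    have h1 : finrank k (Dsp σ P₂ ⊓ Dsp σ P₃ : Submodule k V) ≤ 1 := by
      by_contra hgt
      have hd2 := h.finrank_Dsp P₂
      have hd3 := h.finrank_Dsp P₃
      refine hne ((Submodule.eq_of_le_of_finrank_le inf_le_left ?_).symm.trans
        (Submodule.eq_of_le_of_finrank_le inf_le_right ?_)) <;> omega
    have hspan : (k ∙ v) = Dsp σ P₂ ⊓ Dsp σ P₃ :=
      Submodule.eq_of_le_of_finrank_le (by simpa using hvmem) (by rw [finrank_span_singleton hv0]; exact h1)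
    exact Submodule.mem_span_singleton.1 (hspan ▸ Submodule.mem_inf.2 ⟨h2, h3⟩)
  let z0 := q0 0
  let z1 := q0 1
  let z2 := q0 2
  let z3 := q0 3
  -- the pointwise stabiliser of the first two letters fixes the vector
  have hA0 : ∀ f : Fin 3 ↪ Fin r, (∀ i, f i ≠ z0) → (∀ i, f i ≠ z1) → (∀ i, f i ≠ z2) → σ (A f) v = v :=
    fun f a b c => h.fix_Dsp P₂ f (fun i j => by fin_cases j <;> first | exact a i | exact b i | exact c i) hv2
  have hA1 : ∀ f : Fin 3 ↪ Fin r, (∀ i, f i ≠ z0) → (∀ i, f i ≠ z1) → (∀ i, f i ≠ z3) → σ (A f) v = v :=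
    fun f a b c => h.fix_Dsp P₃ f (fun i j => by fin_cases j <;> first | exact a i | exact b i | exact c i) hv3
  have hA : ∀ f : Fin 3 ↪ Fin r, (∀ i, f i ≠ z0) → (∀ i, f i ≠ z1) → σ (A f) v = v := by
    intro f a b
    obtain ⟨u, y, hu, hy, huy⟩ := exists_two_outside ({z0, z1, z2, z3} ∪ Finset.univ.map f) (by
      have h4 : ({z0, z1, z2, z3} : Finset (Fin r)).card ≤ 4 := Finset.card_le_four
      have := Finset.card_union_le ({z0, z1, z2, z3} : Finset (Fin r)) (Finset.univ.map f)
      rw [Finset.card_map, Finset.card_univ, Fintype.card_fin] at this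
      omega)
    simp only [Finset.mem_union, Finset.mem_insert, Finset.mem_singleton, Finset.mem_map, Finset.mem_univ,
      true_and, not_or, not_exists] at hu hy
    have h23 : z2 ≠ z3 := fun hh => absurd (q0.injective hh) (by decide)
    have h30 : z3 ≠ z0 := fun hh => absurd (q0.injective hh) (by decide)
    have h31 : z3 ≠ z1 := fun hh => absurd (q0.injective hh) (by decide)
    let m : Fin 3 ↪ Fin r := mkEmb ![z3, u, y] (by
      intro i j hij
      fin_cases i <;> fin_cases j <;> simp at hij ⊢ <;>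
        first
        | exact hu.1.2.2.2 hij
        | exact hu.1.2.2.2 hij.symm
        | exact hy.1.2.2.2 hij
        | exact hy.1.2.2.2 hij.symm
        | exact huy hij
        | exact huy hij.symm)
    have hm : σ (A m) v = v := hA0 m (fun i => by fin_cases i <;> first | exact h30 | exact hu.1.1 | exact hy.1.1)
      (fun i => by fin_cases i <;> first | exact h31 | exact hu.1.2.1 | exact hy.1.2.1)
      (fun i => by fin_cases i <;> first | exact h23.symm | exact hu.1.2.2.1 | exact hy.1.2.2.1)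
    let f' : Fin 3 ↪ Fin r := f.trans ((A m).1.toEmbedding)
    have hfix : ∀ z, (∀ i, m i ≠ z) → (A m).1 z = z := fun z hz =>
      em_apply_notMem m c3 fun ⟨i, hi⟩ => hz i hi
    have hm0 : ∀ i, m i ≠ z0 := fun i => by fin_cases i <;> first | exact h30 | exact hu.1.1 | exact hy.1.1
    have hm1 : ∀ i, m i ≠ z1 := fun i => by fin_cases i <;> first | exact h31 | exact hu.1.2.1 | exact hy.1.2.1
    have hm3 : (A m).1 y = z3 := by
      have := em_apply m c3 2
      exact this
    have hf' : σ (A f') v = v := hA1 f'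
      (fun i hh => a i ((A m).1.injective (hh.trans (hfix z0 hm0).symm)))
      (fun i hh => b i ((A m).1.injective (hh.trans (hfix z1 hm1).symm)))
      (fun i hh => hy.2 i ((A m).1.injective (hh.trans hm3.symm)))
    have hconj : A m * A f * (A m)⁻¹ = A f' := em_conj _ f f' c3 fun i => rfl
    rw [← hconj, rep_mul_apply, rep_mul_apply] at hf'
    have hinvm : σ (A m)⁻¹ v = v := by
      conv_lhs => rw [← hm]
      rw [rep_inv_apply]
    rw [hinvm] at hf'
    exact rep_injective σ (A m) (hf'.trans hm.symm)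
  obtain ⟨c, hc, hcfac⟩ := exists_complement (mkEmb ![z0, z1] (by
    intro i j hij
    fin_cases i <;> fin_cases j <;> simp at hij ⊢ <;>
      first | exact absurd (q0.injective hij) (by decide) | exact absurd (q0.injective hij.symm) (by decide)))
  -- the whole alternating group on the other letters fixes the vector
  have hstab : ∀ g : Alt r, g.1 z0 = z0 → g.1 z1 = z1 → σ g v = v := by
    intro g g0 g1
    obtain ⟨x, hx⟩ := exists_preimage_em c g (fun z hz => by
      by_cases e0 : z = z0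
      · exact e0 ▸ g0
      by_cases e1 : z = z1
      · exact e1 ▸ g1
      exfalso
      obtain ⟨d, hd⟩ := hcfac (mkEmb (fun _ : Fin 1 => z) (fun a b _ => Subsingleton.elim a b))
        (fun i j => by fin_cases j <;> first | exact e0 | exact e1)
      exact hz ⟨d 0, DFunLike.congr_fun hd 0⟩)
    subst hx
    let N : Subgroup (Alt (r - 2)) :=
      Subgroup.closure (Set.range fun f : Fin 3 ↪ Fin (r - 2) => A f)
    haveI : IsSimpleGroup (Alt (r - 2)) := alternatingGroup.isSimpleGroup (by simp; omega)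
    haveI hN : N.Normal := ⟨fun n hn g => by
      induction hn using Subgroup.closure_induction with
      | mem n hn =>
        obtain ⟨f, rfl⟩ := hn
        exact Subgroup.subset_closure ⟨f.trans g.1.toEmbedding, (em_conj g f _ c3 fun i => rfl).symm⟩
      | one => simp [N.one_mem]
      | mul a b _ _ ha hb =>
        rw [show g * (a * b) * g⁻¹ = (g * a * g⁻¹) * (g * b * g⁻¹) by group]
        exact N.mul_mem ha hb
      | inv a _ ha =>
        rw [show g * a⁻¹ * g⁻¹ = (g * a * g⁻¹)⁻¹ by group]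
        exact N.inv_mem ha⟩
    have htop : N = ⊤ := by
      rcases hN.eq_bot_or_eq_top with hb | ht
      · exfalso
        have h1 : A (Fin.castLEEmb (show 3 ≤ r - 2 by omega)) ∈ N := Subgroup.subset_closure ⟨_, rfl⟩
        rw [hb, Subgroup.mem_bot] at h1
        exact em_ne_one _ c3_ne_one h1
      · exact ht
    have hxN : x ∈ N := htop ▸ Subgroup.mem_top x
    clear g0 g1
    induction hxN using Subgroup.closure_induction with
    | mem y hy =>
      obtain ⟨f, rfl⟩ := hy
      rw [em_trans]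
      exact hA _ (fun i => hc (f i) 0) (fun i => hc (f i) 1)
    | one => simp
    | mul a b _ _ ha hb => rw [map_mul, rep_mul_apply, hb, ha]
    | inv a _ ha =>
      conv_lhs => rw [map_inv, ← ha]
      rw [rep_inv_apply]
  -- the swap of the two letters
  let t4 : Alt 4 := ⟨swap 0 1 * swap 2 3, Perm.mem_alternatingGroup.2 (by decide)⟩
  let t : Alt r := em q0 t4
  have ht0 : t.1 z0 = z1 := em_apply q0 t4 0
  have ht1 : t.1 z1 = z0 := em_apply q0 t4 1
  have htv : σ t v = v := by
    have e2 : σ t v ∈ Dsp σ P₃ := by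
      rw [← Dsp_flip σ P₃, ← Dsp_rot σ ((swap (1 : Fin 3) 2).toEmbedding.trans P₃),
        ← Dsp_rot σ ((finRotate 3).toEmbedding.trans ((swap (1 : Fin 3) 2).toEmbedding.trans P₃)),
        ← map_Dsp σ t P₂ _ fun i => ?_]
      · exact Submodule.mem_map_of_mem hv2
      · fin_cases i <;> exact em_apply q0 t4 _
    have e3 : σ t v ∈ Dsp σ P₂ := by
      rw [← Dsp_flip σ P₂, ← Dsp_rot σ ((swap (1 : Fin 3) 2).toEmbedding.trans P₂),
        ← Dsp_rot σ ((finRotate 3).toEmbedding.trans ((swap (1 : Fin 3) 2).toEmbedding.trans P₂)),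
        ← map_Dsp σ t P₃ _ fun i => ?_]
      · exact Submodule.mem_map_of_mem hv3
      · fin_cases i <;> exact em_apply q0 t4 _
    obtain ⟨a, ha⟩ := hline _ e3 e2
    have htt : t * t = 1 := by
      rw [← map_mul]
      rw [show t4 * t4 = 1 from Subtype.ext (by decide), map_one]
    have : (a * a - 1) • v = 0 := by
      have hh := rep_mul_apply σ t t v
      rw [htt, map_one, Module.End.one_apply, ← ha, map_smul, ← ha, smul_smul] at hh
      rw [sub_smul, one_smul, ← hh, sub_self]
    have ha1 : a = 1 := by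
      have h1 := (smul_eq_zero.1 this).resolve_right hv0
      have : (a - 1) ^ 2 = 0 := by linear_combination h1 - (a - 1) * h.char
      exact sub_eq_zero.1 (pow_eq_zero_iff (by norm_num) |>.1 this)
    rw [← ha, ha1, one_smul]
  -- the vectors attached to pairs of letters
  let q2 : Fin 2 ↪ Fin r := mkEmb ![z0, z1] (by
    intro i j hij
    fin_cases i <;> fin_cases j <;> simp at hij ⊢ <;>
      first | exact absurd (q0.injective hij) (by decide) | exact absurd (q0.injective hij.symm) (by decide))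
  have hgex : ∀ i j : Fin r, i ≠ j → ∃ g : Alt r, g.1 z0 = i ∧ g.1 z1 = j := by
    intro i j hij
    obtain ⟨g, hg⟩ := exists_even_map q2 (mkEmb ![i, j] (by
      intro a b hab
      fin_cases a <;> fin_cases b <;> simp at hab ⊢ <;> first | exact hij hab | exact hij hab.symm)) (by omega)
    exact ⟨g, hg 0, hg 1⟩
  let vp : Fin r → Fin r → V := fun i j => if hij : i = j then 0 else σ (Classical.choose (hgex i j hij)) v
  have hvp : ∀ g : Alt r, ∀ i j, g.1 z0 = i → g.1 z1 = j → vp i j = σ g v := by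
    intro g i j gi gj
    have hij : i ≠ j := fun e => absurd (q0.injective (g.1.injective (gi.trans (e.trans gj.symm)))) (by decide)
    simp only [vp, dif_neg hij]
    obtain ⟨c0, c1⟩ := Classical.choose_spec (hgex i j hij)
    generalize Classical.choose (hgex i j hij) = g' at c0 c1 ⊢
    have := hstab (g⁻¹ * g') (by show g.1⁻¹ (g'.1 z0) = z0; rw [c0, ← gi]; simp)
      (by show g.1⁻¹ (g'.1 z1) = z1; rw [c1, ← gj]; simp)
    rw [rep_mul_apply] at this
    conv_rhs => rw [← this, rep_apply_inv]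
  have hvp0 : vp z0 z1 = v := by
    rw [hvp 1 z0 z1 rfl rfl, map_one]; rfl
  have hvequiv : ∀ g : Alt r, ∀ i j, σ g (vp i j) = vp (g.1 i) (g.1 j) := by
    intro g i j
    by_cases hij : i = j
    · simp [vp, hij]
    obtain ⟨g', c0, c1⟩ := hgex i j hij
    rw [hvp g' i j c0 c1, ← rep_mul_apply,
      hvp (g * g') _ _ (by show g.1 (g'.1 z0) = _; rw [c0]) (by show g.1 (g'.1 z1) = _; rw [c1])]
  have hvsymm : ∀ i j, vp i j = vp j i := by
    intro i j
    by_cases hij : i = j
    · simp [hij]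
    obtain ⟨g', c0, c1⟩ := hgex i j hij
    rw [hvp g' i j c0 c1, hvp (g' * t) j i (by show g'.1 (t.1 z0) = j; rw [ht0, c1])
      (by show g'.1 (t.1 z1) = i; rw [ht1, c0]), rep_mul_apply, htv]
  have hvne : ∀ i j, i ≠ j → vp i j ≠ 0 := by
    intro i j hij hh
    obtain ⟨g', c0, c1⟩ := hgex i j hij
    rw [hvp g' i j c0 c1] at hh
    exact hv0 (rep_injective σ g' (by rw [hh, map_zero]))
  -- the relation on a triangle
  have hrel0 : vp z0 z1 + vp z1 z2 + vp z2 z0 = 0 := by
    have e0 : (A P₂).1 z0 = z1 := em_apply P₂ c3 0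
    have e1 : (A P₂).1 z1 = z2 := em_apply P₂ c3 1
    have e2 : (A P₂).1 z2 = z0 := em_apply P₂ c3 2
    refine h.Dsp_inf_fixed P₂ ?_ ?_
    · have hin : ∀ x, x ∈ Dsp σ P₂ → σ (A P₂) x ∈ Dsp σ P₂ := by
        rintro _ ⟨y, rfl⟩
        exact ⟨σ (A P₂) y, by simp⟩
      have m0 : vp z0 z1 ∈ Dsp σ P₂ := hvp0 ▸ hv2
      have m1 : vp z1 z2 ∈ Dsp σ P₂ := by
        have := hin _ m0
        rwa [hvequiv, e0, e1] at this
      have m2 : vp z2 z0 ∈ Dsp σ P₂ := by
        have := hin _ m1
        rwa [hvequiv, e1, e2] at this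
      exact add_mem (add_mem m0 m1) m2
    · rw [map_add, map_add, hvequiv, hvequiv, hvequiv, e0, e1, e2]
      abel
  have hrel : ∀ i j l : Fin r, i ≠ j → i ≠ l → j ≠ l → vp i j + vp j l + vp l i = 0 := by
    intro i j l hij hil hjl
    obtain ⟨g, hg⟩ := exists_even_map P₂ (mkEmb ![i, j, l] (by
      intro a b hab
      fin_cases a <;> fin_cases b <;> simp at hab ⊢ <;>
        first | exact hij hab | exact hij hab.symm | exact hil hab | exact hil hab.symm |
          exact hjl hab | exact hjl hab.symm)) (by omega)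
    have g0 : g.1 z0 = i := hg 0
    have g1 : g.1 z1 = j := hg 1
    have g2 : g.1 z2 = l := hg 2
    have := congrArg (σ g) hrel0
    rwa [map_add, map_add, map_zero, hvequiv, hvequiv, hvequiv, g0, g1, g2] at this
  have hneg : ∀ x : V, -x = x := fun x => by
    rw [neg_eq_iff_add_eq_zero, ← two_smul k x, h.char, zero_smul]
  let o : Fin r := ⟨0, by omega⟩
  let w : Fin r → V := fun i => vp o i
  have hvw : ∀ i j, vp i j = w i + w j := by
    intro i j
    by_cases hij : i = j
    · subst hij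
      simp only [vp, dif_pos]
      rw [eq_comm, add_eq_zero_iff_eq_neg, hneg]
    by_cases hi : o = i
    · subst hi; simp [w, vp]
    by_cases hj : o = j
    · subst hj; rw [hvsymm]; simp [w, vp]
    have := hrel o i j hi hj hij
    rw [hvsymm j o] at this
    calc vp i j = -(w i + w j) := by rw [eq_neg_iff_add_eq_zero, ← this]; abel
      _ = _ := hneg _
  let Φ : (Fin r → k) →ₗ[k] V := Fintype.linearCombination k w
  have hΦ : ∀ x, Φ x = ∑ i, x i • w i := fun x => Fintype.linearCombination_apply k w x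
  have hpair : ∀ (a : k) (i j : Fin r), Φ (Pi.single i a + Pi.single j a) = a • vp i j := by
    intro a i j
    rw [map_add, hΦ, hΦ, Finset.sum_eq_single i (fun b _ hb => by simp [hb]) (by simp),
      Finset.sum_eq_single j (fun b _ hb => by simp [hb]) (by simp), Pi.single_eq_same, Pi.single_eq_same,
      hvw, smul_add]
  have hΦeq : ∀ (g : Alt r) (x : Fin r → k), ∑ i, x i = 0 → σ g (Φ x) = Φ (x ∘ ⇑g.1⁻¹) := by
    intro g x hx
    rw [hΦ, map_sum]
    calc ∑ i, σ g (x i • w i) = ∑ i, (x i • w (g.1 o) + x i • w (g.1 i)) :=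
          Finset.sum_congr rfl fun i _ => by rw [map_smul, hvequiv, hvw, smul_add]
      _ = ∑ i, x i • w (g.1 i) := by rw [Finset.sum_add_distrib, ← Finset.sum_smul, hx, zero_smul, zero_add]
      _ = _ := by
          rw [hΦ, ← Equiv.sum_comp g.1 fun i => (x ∘ ⇑g.1⁻¹) i • w i]
          simp
  -- a dependency among the vectors
  obtain ⟨x₀, hx₀, i₀, hi₀⟩ := Fintype.not_linearIndependent_iff.1
    (fun hli : LinearIndependent k (fun i : {i : Fin r // i ≠ o} => w i) => by
      have h1 := hli.fintype_card_le_finrank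
      rw [Fintype.card_subtype_compl, Fintype.card_subtype_eq, Fintype.card_fin] at h1
      have := h.dim
      omega)
  let x₁ : Fin r → k := fun i => if hi : i = o then -∑ j, x₀ j else x₀ ⟨i, hi⟩
  have hw0 : w o = 0 := by simp [w, vp]
  have hx1 : Φ x₁ = 0 ∧ ∑ i, x₁ i = 0 := by
    have hs : ∀ (M : Type v) [AddCommGroup M] (F : Fin r → M), ∑ i, F i = F o + ∑ j : {i : Fin r // i ≠ o}, F j := by
      intro M _ F
      rw [← Finset.add_sum_erase _ _ (Finset.mem_univ o)]
      congr 1
      exact Finset.sum_subtype (Finset.univ.erase o) (fun i => by simp) F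
    refine ⟨?_, ?_⟩
    · rw [hΦ, hs V, hw0, smul_zero, zero_add, ← hx₀]
      exact Finset.sum_congr rfl fun j _ => by simp [x₁, j.2]
    · rw [← Finset.add_sum_erase _ _ (Finset.mem_univ o),
        Finset.sum_subtype (Finset.univ.erase o) (p := fun i => i ≠ o) (fun i => by simp) x₁]
      simp only [x₁, dif_pos]
      rw [neg_add_eq_zero]
      exact Finset.sum_congr rfl fun j _ => by simp [j.2]
  have hnonconst : ∃ i j : Fin r, x₁ i ≠ x₁ j := by
    by_contra hall
    push Not at hall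
    have h0 : x₁ o = 0 := by
      have hs := hx1.2
      rw [Finset.sum_congr rfl fun i _ => hall i o, Finset.sum_const, Finset.card_univ, Fintype.card_fin,
        nsmul_eq_mul, show r = 2 * (r / 2) + 1 by have := h.odd; omega] at hs
      push_cast at hs
      rw [h.char, zero_mul, zero_add, one_mul] at hs
      exact hs
    apply hi₀
    have := hall i₀.1 o
    rw [h0] at this
    simpa [x₁, i₀.2] using this
  -- moving it by double transpositions
  have move : ∀ (x : Fin r → k), Φ x = 0 → ∑ i, x i = 0 → ∀ i j l m : Fin r, i ≠ j → l ≠ m → i ≠ l → i ≠ m →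
      j ≠ l → j ≠ m →
      Φ (Pi.single i (x i - x j) + Pi.single j (x i - x j) + (Pi.single l (x l - x m) + Pi.single m (x l - x m))) = 0 := by
    intro x hx hsx i j l m hij hlm hil him hjl hjm
    let g : Alt r := ⟨swap i j * swap l m, Perm.mem_alternatingGroup.2 (by
      rw [map_mul, Perm.sign_swap hij, Perm.sign_swap hlm]; decide)⟩
    have h1 := hΦeq g x hsx
    rw [hx, map_zero] at h1
    have hfun : Pi.single i (x i - x j) + Pi.single j (x i - x j) + (Pi.single l (x l - x m) + Pi.single m (x l - x m)) =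
        x - x ∘ ⇑g.1⁻¹ := by
      have hchar : ∀ a b : k, a - b = b - a := fun a b => by linear_combination (a - b) * h.char
      funext z
      have hg : g.1⁻¹ z = swap l m (swap i j z) := by simp [g, mul_inv_rev, swap_inv]
      simp only [Pi.add_apply, Pi.sub_apply, Function.comp_apply, hg]
      by_cases zi : z = i
      · subst zi; simp [hij, hil, him, swap_apply_of_ne_of_ne hjl hjm]
      by_cases zj : z = j
      · subst zj
        simp [Ne.symm hij, hjl, hjm, swap_apply_of_ne_of_ne hil him]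
        exact hchar _ _
      rw [swap_apply_of_ne_of_ne zi zj]
      by_cases zl : z = l
      · subst zl; simp [zi, zj, hlm]
      by_cases zm : z = m
      · subst zm; simp [zi, zj, Ne.symm hlm]; exact hchar _ _
      simp [zi, zj, zl, zm, swap_apply_of_ne_of_ne zl zm]
    rw [hfun, map_sub, hx, ← h1, sub_zero]
  obtain ⟨i, j, hij⟩ := hnonconst
  have hij' : i ≠ j := fun e => hij (e ▸ rfl)
  obtain ⟨l, m, hl, hm, hlm⟩ := exists_two_outside ({i, j} : Finset (Fin r))
    (by have := Finset.card_le_two (a := i) (b := j); omega)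
  simp only [Finset.mem_insert, Finset.mem_singleton, not_or] at hl hm
  set y : Fin r → k := Pi.single i (x₁ i - x₁ j) + Pi.single j (x₁ i - x₁ j) +
    (Pi.single l (x₁ l - x₁ m) + Pi.single m (x₁ l - x₁ m)) with hy
  have hy0 : Φ y = 0 := move x₁ hx1.1 hx1.2 i j l m hij' hlm (Ne.symm hl.1) (Ne.symm hm.1) (Ne.symm hl.2) (Ne.symm hm.2)
  have hysum : ∑ z, y z = 0 := by
    simp only [hy, Pi.add_apply, Finset.sum_add_distrib, Finset.sum_pi_single', Finset.mem_univ, if_true]
    linear_combination ((x₁ i - x₁ j) + (x₁ l - x₁ m)) * h.char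
  have hyz : ∀ z, z ≠ i → z ≠ j → z ≠ l → z ≠ m → y z = 0 := fun z a b c d => by simp [hy, a, b, c, d]
  have hyi : y i ≠ 0 := by
    simpa [hy, hij', Ne.symm hl.1, Ne.symm hm.1] using sub_ne_zero.2 hij
  have hcard4 : ({i, j, l, m} : Finset (Fin r)).card ≤ 4 := Finset.card_le_four
  obtain ⟨a, ha⟩ : ∃ a, a ∉ ({i, j, l, m} : Finset (Fin r)) := by
    obtain ⟨a, b, ha, -, -⟩ := exists_two_outside ({i, j, l, m} : Finset (Fin r)) (by omega)
    exact ⟨a, ha⟩
  obtain ⟨b, c', hb, hc', hbc⟩ := exists_two_outside (insert a ({i, j, l, m} : Finset (Fin r))) (by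
    have := Finset.card_insert_le a ({i, j, l, m} : Finset (Fin r)); omega)
  simp only [Finset.mem_insert, Finset.mem_singleton, not_or] at ha hb hc'
  have key := move y hy0 hysum i a b c' (Ne.symm ha.1) hbc (Ne.symm hb.2.1) (Ne.symm hc'.2.1) (Ne.symm hb.1) (Ne.symm hc'.1)
  rw [hyz a ha.1 ha.2.1 ha.2.2.1 ha.2.2.2, hyz b hb.2.1 hb.2.2.1 hb.2.2.2.1 hb.2.2.2.2,
    hyz c' hc'.2.1 hc'.2.2.1 hc'.2.2.2.1 hc'.2.2.2.2, sub_zero, sub_zero, Pi.single_zero, Pi.single_zero,
    add_zero, add_zero, hpair] at key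
  exact hvne i a (Ne.symm ha.1) ((smul_eq_zero.1 key).resolve_left hyi)

end SmallTwo

end CfsgLib.AltLinear
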