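import Cfsg.Agent.AltLinear.Five

/-!
Three-cycles in a small faithful module of an alternating group of odd degree, characteristic two:
their commutator spaces are planes centralised by the complementary alternating group.
-/

set_option autoImplicit false

namespace CfsgLib.AltLinear

open Module Equiv

universe u v

variable {k : Type u} [Field k] [IsAlgClosed k] {V : Type v} [AddCommGroup V] [Module k V]
  [FiniteDimensional k V] {r : ℕ}

theorem cube_root_cases {μ ν : k} (hμ : μ ≠ 1) (hμ3 : μ ^ 3 = 1) (hν : ν ≠ 1) (hν3 : ν ^ 3 = 1) :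
    ν = μ ∨ ν = μ⁻¹ := by
  have hr : ν ^ 2 + ν + 1 = 0 := by
    have : (ν - 1) * (ν ^ 2 + ν + 1) = 0 := by linear_combination hν3
    exact (mul_eq_zero.1 this).resolve_left (sub_ne_zero.2 hν)
  have hm : μ ^ 2 + μ + 1 = 0 := by
    have : (μ - 1) * (μ ^ 2 + μ + 1) = 0 := by linear_combination hμ3
    exact (mul_eq_zero.1 this).resolve_left (sub_ne_zero.2 hμ)
  have : (ν - μ) * (ν + μ + 1) = 0 := by linear_combination hr - hm
  rcases mul_eq_zero.1 this with h | h
  · exact Or.inl (sub_eq_zero.1 h)
  · refine Or.inr (eq_inv_of_mul_eq_one_left ?_)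
    linear_combination μ * h - hm

/-- The hypotheses on the module. -/
structure SmallTwo (σ : Representation k (Alt r) V) : Prop where
  char : (2 : k) = 0
  deg : 9 ≤ r
  odd : r % 2 = 1
  inj : ∀ g, σ g = 1 → g = 1
  dim : finrank k V + 2 ≤ r

variable {σ : Representation k (Alt r) V}

namespace SmallTwo

theorem three_ne (h : SmallTwo σ) : (3 : k) ≠ 0 := fun h3 => one_ne_zero (α := k) (by linear_combination h3 - h.char)

theorem five_ne (h : SmallTwo σ) : (5 : k) ≠ 0 := fun h5 =>
  one_ne_zero (α := k) (by linear_combination h5 - (2 : k) * h.char)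

/-- Disjoint three-cycles fix each other's non-trivial eigenvectors. -/
theorem fix (h : SmallTwo σ) (e f : Fin 3 ↪ Fin r) (hd : ∀ i j, f i ≠ e j) {μ : k} (hμ : μ ≠ 1)
    (hμ3 : μ ^ 3 = 1) {x : V} (hx : x ∈ Module.End.eigenspace (σ (A e)) μ) : σ (A f) x = x := by
  by_contra hne
  have hr := h.deg
  have hodd := h.odd
  have hdim := h.dim
  obtain ⟨d, hd', hfac⟩ := exists_complement e
  obtain ⟨d', hd''⟩ := hfac f hd
  have hU : ∀ g, ∀ y ∈ Module.End.eigenspace (σ (A e)) μ, σ (em d g) y ∈ _ := fun g =>
    eigen_invariant σ (em_comm d e g c3 hd') μ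
  have hE : 2 * ((r - 3) / 3) ≤ finrank k (Module.End.eigenspace (σ (A e)) μ) := by
    refine weakThree h.three_ne _ (r - 3) (by omega) (by omega) (restrictRep (σ.comp (em d)) _ hU)
      ⟨em d' c3, fun h1 => hne ?_⟩
    have := (restrictRep_eq_one_iff _ _ hU _).1 h1 x hx
    rwa [MonoidHom.comp_apply, em_trans, hd''] at this
  have hinv := finrank_eigen_inv σ (by omega) e μ
  have hle := three_eigen_le σ e hμ hμ3
  by_cases h11 : r = 11
  · subst h11
    -- four fixed lines of the three-cycle from a disjoint five-cycle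
    obtain ⟨c, hc, -⟩ := exists_complement e
    let F : Fin 5 ↪ Fin 11 := (mkEmb ![0, 1, 2, 3, 4] (by decide) : Fin 5 ↪ Fin (11 - 3)).trans c
    let G : Fin 5 ↪ Fin 11 := mkEmb ![e 0, e 1, e 2, c 5, c 6] (by
      intro i j hij
      have h01 : ∀ a b, e a = e b → a = b := fun a b hab => e.injective hab
      have hc' : ∀ a b, c a = c b → a = b := fun a b hab => c.injective hab
      fin_cases i <;> fin_cases j <;> simp at hij ⊢ <;>
        first
        | exact absurd (h01 _ _ hij) (by decide)
        | exact absurd (hc' _ _ hij) (by decide)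
        | exact absurd hij (hc _ _)
        | exact absurd hij.symm (hc _ _))
    have hFG : ∀ i j, F i ≠ G j := by
      intro i j hij
      fin_cases j <;> simp [F, G] at hij <;>
        first
        | exact absurd hij (hc _ _)
        | exact absurd (c.injective hij) (by fin_cases i <;> decide)
    have hG : (mkEmb ![0, 1, 2] (by decide) : Fin 3 ↪ Fin 5).trans G = e :=
      Function.Embedding.ext fun i => by fin_cases i <;> rfl
    have hFne : σ (em F c5) ≠ 1 := fun h1 => em_ne_one F c5_ne_one (h.inj _ h1)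
    obtain ⟨ζ, hζ, hall⟩ := exists_fourEigen σ h.five_ne (by omega) F hFne
    have hcomm : em F c5 * A e = A e * em F c5 :=
      em_comm F e c5 c3 fun i j => hc _ j
    have h4 : 4 ≤ finrank k (Module.End.eigenspace (σ (A e)) 1) := by
      refine four_le_of_eigen (σ (em F c5)) hζ _ (eigen_invariant σ hcomm 1) fun i hi => ?_
      obtain ⟨v, hv, hve⟩ := hall i hi
      refine ⟨v, Module.End.mem_eigenspace_iff.2 ?_, hv, hve⟩
      rw [one_smul]
      have hU' : ∀ g, ∀ y ∈ Module.End.eigenspace (σ (em F c5)) (ζ ^ i.val), σ (em G g) y ∈ _ := fun g =>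
        eigen_invariant σ (em_comm G F g c5 fun a b => (hFG b a).symm) _
      have hfix : ∀ y, σ (em F c5) y = ζ ^ i.val • y → σ (em G c5) y = y := fun y hy =>
        five_fix σ h.five_ne (by omega) (by omega) F G hFG hζ hi hy
      have hone := eq_one_of_map_eq_one (by omega) (restrictRep (σ.comp (em G)) _ hU') c5_ne_one
        ((restrictRep_eq_one_iff _ _ hU' _).2 fun y hy => hfix y (Module.End.mem_eigenspace_iff.1 hy))
        (em (mkEmb ![0, 1, 2] (by decide) : Fin 3 ↪ Fin 5) c3)
      have := (restrictRep_eq_one_iff _ _ hU' _).1 hone v (Module.End.mem_eigenspace_iff.2 hve)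
      rwa [MonoidHom.comp_apply, em_trans, hG] at this
    omega
  · omega

theorem finrank_eigen_conj' (h : SmallTwo σ) (e f : Fin 3 ↪ Fin r) (μ : k) :
    finrank k (Module.End.eigenspace (σ (A f)) μ) = finrank k (Module.End.eigenspace (σ (A e)) μ) := by
  obtain ⟨g, hg⟩ := exists_em_conj e f (by have := h.deg; omega)
  rw [A, ← hg, finrank_eigen_conj]

/-- The non-trivial eigenspaces of three-cycles are lines. -/
theorem finrank_eigen_eq_one (h : SmallTwo σ) (e : Fin 3 ↪ Fin r) {μ : k} (hμ : μ ≠ 1) (hμ3 : μ ^ 3 = 1) :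
    finrank k (Module.End.eigenspace (σ (A e)) μ) = 1 := by
  have hr := h.deg
  have hdim := h.dim
  obtain ⟨μ₀, hμ₀, hμ₀3, hp, hp'⟩ := exists_mu σ h.three_ne (by omega)
    ⟨A e, fun h1 => em_ne_one e c3_ne_one (h.inj _ h1)⟩ e
  set n₁ := finrank k (Module.End.eigenspace (σ (A e)) μ) with hn₁
  have hpos : 0 < n₁ := by
    rcases cube_root_cases hμ₀ hμ₀3 hμ hμ3 with rfl | rfl
    · exact hp
    · exact hp'
  let b : Fin (r / 3) → Fin 3 ↪ Fin r := fun i => mkEmb (fun j => ⟨3 * i.val + j.val, by omega⟩)
    (fun a a' h => Fin.ext (by simpa using congrArg Fin.val h))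
  have hb : ∀ i i', i ≠ i' → ∀ j j', b i j ≠ b i' j' := fun i i' hii j j' h => by
    have : 3 * i.val + j.val = 3 * i'.val + j'.val := congrArg Fin.val h
    have := j.isLt
    have := j'.isLt
    exact hii (Fin.ext (by omega))
  let w : Bool → k := fun z => if z then μ else μ⁻¹
  have hw : ∀ z, w z ≠ 1 ∧ w z ^ 3 = 1 := fun z => by
    cases z <;> simp only [w, if_true, Bool.false_eq_true, if_false]
    · exact ⟨inv_ne_one' hμ, inv_cube hμ3⟩
    · exact ⟨hμ, hμ3⟩
  let T : Fin (r / 3) × Bool → End k V := fun z =>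
    (σ (A (b z.1)) - (w !z.2) • 1) * (σ (A (b z.1)) - 1)
  have := sum_finrank_le (fun z => Module.End.eigenspace (σ (A (b z.1))) (w z.2)) T
    (fun z z' hzz x hx => by
      obtain ⟨i, e⟩ := z
      obtain ⟨i', e'⟩ := z'
      simp only [T, Module.End.mul_apply, LinearMap.sub_apply, Module.End.one_apply]
      by_cases hii : i = i'
      · subst hii
        have he : e' = !e := by cases e <;> cases e' <;> first | rfl | exact absurd rfl hzz
        rw [Module.End.mem_eigenspace_iff] at hx
        subst he
        simp only [Bool.not_not, hx, LinearMap.smul_apply, Module.End.one_apply, map_sub, map_smul]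
        module
      · rw [h.fix (b i) (b i') (hb i' i (Ne.symm hii)) (hw e).1 (hw e).2 hx, sub_self]
        simp)
    (fun z x hx h0 => by
      obtain ⟨i, e⟩ := z
      rw [Module.End.mem_eigenspace_iff] at hx
      simp only [T, Module.End.mul_apply, LinearMap.sub_apply, Module.End.one_apply,
        LinearMap.smul_apply, hx, map_sub, map_smul] at h0
      have h' : ((w e - 1) * (w e - w !e)) • x = 0 := by rw [← h0]; module
      refine (smul_eq_zero.1 h').resolve_left (mul_ne_zero (sub_ne_zero.2 (hw e).1) (sub_ne_zero.2 ?_))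
      have := ne_inv_of_cube hμ hμ3
      cases e
      · exact this.symm
      · exact this)
  have hall : ∀ z : Fin (r / 3) × Bool, finrank k (Module.End.eigenspace (σ (A (b z.1))) (w z.2)) = n₁ := by
    rintro ⟨i, e'⟩
    rw [h.finrank_eigen_conj' e (b i)]
    cases e'
    · exact finrank_eigen_inv σ (by omega) e μ
    · rfl
  rw [Finset.sum_congr rfl fun z _ => hall z] at this
  simp only [Finset.sum_const, Finset.card_univ, Fintype.card_prod, Fintype.card_fin, Fintype.card_bool,
    smul_eq_mul] at this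
  by_contra hne
  have h2 : r / 3 * 2 * 2 ≤ r / 3 * 2 * n₁ := Nat.mul_le_mul le_rfl (by omega)
  omega

end SmallTwo

end CfsgLib.AltLinear
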